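import Mathlib
import Cfsg.Agent.Class.AltBasis

/-! Irreducible rational representations of degree 23: invariant forms, Schur's lemma and the
averaging identity. -/

set_option autoImplicit false

namespace Cfsg.Lib.Feit23

open Module LinearMap

variable {G V : Type*} [Group G] [AddCommGroup V] [Module ℚ V]

/-- A faithful irreducible rational representation of degree 23. -/
structure Irr (ρ : Representation ℚ G V) : Prop where
  dim : finrank ℚ V = 23
  inj : Function.Injective ρ
  irr : ∀ W : Submodule ℚ V, (∀ g, ∀ w ∈ W, ρ g w ∈ W) → W = ⊥ ∨ W = ⊤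

/-- A symmetric positive definite form. -/
structure Pos (B : LinearMap.BilinForm ℚ V) : Prop where
  symm : ∀ y z, B y z = B z y
  pos : ∀ y, y ≠ 0 → 0 < B y y

/-- An invariant positive definite form. -/
structure Form (ρ : Representation ℚ G V) (B : LinearMap.BilinForm ℚ V) : Prop extends Pos B where
  inv : ∀ g y z, B (ρ g y) (ρ g z) = B y z

variable {ρ : Representation ℚ G V} {B : LinearMap.BilinForm ℚ V}

theorem Pos.nonneg (h : Pos B) (y : V) : 0 ≤ B y y := by
  by_cases e : y = 0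
  · simp [e]
  · exact (h.pos y e).le

theorem Pos.eq_zero (h : Pos B) {y : V} (e : B y y = 0) : y = 0 := by
  by_contra k
  exact (h.pos y k).ne' e

theorem Pos.nondeg (h : Pos B) : B.Nondegenerate :=
  ⟨fun y e => h.eq_zero (e y), fun y e => h.eq_zero (e y)⟩

theorem Pos.smul (h : Pos B) {c : ℚ} (hc : 0 < c) : Pos (c • B) :=
  ⟨fun y z => by simp [h.symm y z], fun y e => by simpa using mul_pos hc (h.pos y e)⟩

theorem Form.smul (h : Form ρ B) {c : ℚ} (hc : 0 < c) : Form ρ (c • B) :=
  ⟨h.toPos.smul hc, fun g y z => by simp [h.inv]⟩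

theorem mul_app (g k : G) (y : V) : ρ (g * k) y = ρ g (ρ k y) := by rw [map_mul]; rfl

theorem inv_app (g : G) (y : V) : ρ g⁻¹ (ρ g y) = y := by rw [← mul_app]; simp

theorem app_inv (g : G) (y : V) : ρ g (ρ g⁻¹ y) = y := by rw [← mul_app]; simp

theorem Form.adj (h : Form ρ B) (g : G) (y z : V) : B (ρ g y) z = B y (ρ g⁻¹ z) := by
  rw [← h.inv g⁻¹, inv_app]

theorem Irr.fin (h : Irr ρ) : FiniteDimensional ℚ V := finite_of_finrank_pos (by rw [h.dim]; omega)

/-- An alternating form in dimension 23 is degenerate. -/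
theorem exists_rad (hd : finrank ℚ V = 23) {ω : LinearMap.BilinForm ℚ V} (h : ∀ y, ω y y = 0) :
    ∃ z, z ≠ 0 ∧ ∀ y, ω y z = 0 := by
  have : FiniteDimensional ℚ V := finite_of_finrank_pos (by rw [hd]; omega)
  by_contra k
  push Not at k
  have a : ω.IsAlt := h
  have b : ∀ z, (∀ y, ω y z = 0) → z = 0 := fun z e => by
    by_contra e'
    obtain ⟨y, hy⟩ := k z e'
    exact hy (e y)
  have := Class.even_finrank_of_isAlt (B := ω) ⟨fun z e => b z fun y => by
    rw [← a.neg_eq, e, neg_zero], b⟩ a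
  rw [hd] at this
  exact absurd this (by decide)

theorem Irr.not_line (h : Irr ρ) {u : V} (hu : u ≠ 0) : ¬ ∀ g, ∃ c : ℚ, ρ g u = c • u := fun k => by
  rcases h.irr (ℚ ∙ u) (fun g w hw => by
    obtain ⟨a, rfl⟩ := Submodule.mem_span_singleton.1 hw
    obtain ⟨c, hc⟩ := k g
    rw [map_smul, hc]
    exact Submodule.smul_mem _ _ (Submodule.smul_mem _ _ (Submodule.mem_span_singleton_self u)))
    with e | e
  · exact hu (Submodule.span_singleton_eq_bot.1 e)
  · have := finrank_span_singleton (K := ℚ) hu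
    rw [e, finrank_top, h.dim] at this
    omega

/-- Schur's lemma: the representation is absolutely irreducible. -/
theorem Irr.scalar (h : Irr ρ) (hB : Form ρ B) {T : End ℚ V} (hT : ∀ g, ρ g * T = T * ρ g) :
    ∃ c : ℚ, T = c • 1 := by
  have := h.fin
  have hn : Nontrivial V := Module.nontrivial_of_finrank_pos (R := ℚ) (by rw [h.dim]; omega)
  let E : Subalgebra ℚ (End ℚ V) := Subalgebra.centralizer ℚ (Set.range ρ)
  have cm : ∀ (e : E) g y, ρ g (e.1 y) = e.1 (ρ g y) := fun e g y =>
    congr($(e.2 (ρ g) ⟨g, rfl⟩) y)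
  have sy : ∀ (e : E) y z, B (e.1 y) z = B y (e.1 z) := fun e => by
    obtain ⟨z, hz, k⟩ := exists_rad h.dim (ω := B.compLeft e.1 - B.compRight e.1) fun y => by
      simp [hB.symm y]
    have := (h.irr (ker (B.compLeft e.1 - B.compRight e.1).flip) fun g w hw => by
      rw [mem_ker] at hw ⊢
      ext y
      have : B (e.1 (ρ g⁻¹ y)) w - B (ρ g⁻¹ y) (e.1 w) = 0 := congr($hw (ρ g⁻¹ y))
      change B (e.1 y) (ρ g w) - B y (e.1 (ρ g w)) = 0
      rw [← this, ← cm, ← cm, ← hB.inv g⁻¹, inv_app, ← hB.inv g⁻¹ y, inv_app]).resolve_left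
      fun e' => hz ((Submodule.eq_bot_iff _).1 e' z (LinearMap.ext k))
    intro y w
    have := congr($(mem_ker.1 (this.ge (Submodule.mem_top (x := w)))) y)
    simpa [sub_eq_zero] using this
  have cc : ∀ (e f : E) y, e.1 (f.1 y) = f.1 (e.1 y) := fun e f y => by
    rw [← sub_eq_zero]
    refine hB.nondeg.1 _ fun z => ?_
    have := sy (e * f) y z
    simp only [MulMemClass.coe_mul, End.mul_apply] at this
    rw [map_sub, LinearMap.sub_apply, this, sy, sy, sub_self]
  have un : ∀ e : E, IsUnit e ∨ e = 0 := fun e => by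
    rcases h.irr (ker e.1) fun g w hw => by rw [mem_ker, ← cm, mem_ker.1 hw, map_zero] with k | k
    · obtain ⟨a, ha⟩ := (isUnit_iff_ker_eq_bot e.1).2 k
      have m : (a⁻¹ : (End ℚ V)ˣ).1 ∈ E := by
        rintro _ ⟨g, rfl⟩
        exact (Commute.units_inv_right (show Commute (ρ g) a.1 from ha ▸ e.2 (ρ g) ⟨g, rfl⟩)).eq
      exact Or.inl ⟨⟨e, ⟨_, m⟩, Subtype.ext (show e.1 * _ = 1 from ha ▸ a.mul_inv),
        Subtype.ext (show _ * e.1 = 1 from ha ▸ a.inv_mul)⟩, rfl⟩
    · exact Or.inr (Subtype.ext (ker_eq_top.1 k))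
  let _ : DivisionRing E := DivisionRing.ofIsUnitOrEqZero un
  have d := finrank_mul_finrank ℚ E V
  rw [h.dim] at d
  rcases (Nat.dvd_prime (by norm_num)).1 (Dvd.intro _ d) with k | k
  · obtain ⟨c, hc⟩ := (finrank_eq_one_iff_of_nonzero' (1 : E) one_ne_zero).1 k
      ⟨T, by rintro _ ⟨g, rfl⟩; exact hT g⟩
    exact ⟨c, (congrArg Subtype.val hc).symm⟩
  · exfalso
    obtain ⟨u, hu⟩ := exists_ne (0 : V)
    have k1 := (finrank_eq_one_iff_of_nonzero' (K := E) u hu).1 (by rw [k] at d; omega)
    refine h.not_line hu fun g => ?_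
    obtain ⟨e, he⟩ := k1 (ρ g u)
    have e1 : ∀ y, ρ g y = e.1 y := fun y => by
      obtain ⟨f, rfl⟩ := k1 y
      change ρ g (f.1 u) = e.1 (f.1 u)
      rw [cm, cc, ← he]; rfl
    have e2 : (e - 1) * (e + 1) = 0 := Subtype.ext (LinearMap.ext fun y => by
      refine hB.nondeg.1 _ fun z => ?_
      have := hB.inv g y z
      rw [e1, e1, ← sy] at this
      simp [this, add_comm])
    rcases mul_eq_zero.1 e2 with a | a
    · exact ⟨1, by rw [e1, sub_eq_zero.1 a]; simp⟩
    · exact ⟨-1, by rw [e1, eq_neg_of_add_eq_zero_left a]; simp⟩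

variable [Fintype G]

/-- The averaging identity. -/
theorem Irr.avg (h : Irr ρ) (hB : Form ρ B) (m z l : V) :
    ∑ g, B (ρ g m) l • ρ g z = ((Nat.card G : ℚ) / 23 * B m z) • l := by
  have := h.fin
  obtain ⟨c, hc⟩ := h.scalar hB (T := ∑ g, (B (ρ g m)).smulRight (ρ g z)) fun k => by
    ext y
    simp only [End.mul_apply, LinearMap.sum_apply, smulRight_apply, map_sum, map_smul]
    refine Fintype.sum_equiv (Equiv.mulLeft k) _ _ fun g => ?_
    simp only [Equiv.coe_mulLeft, mul_app, hB.inv]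
  have t := congrArg (trace ℚ V) hc
  simp only [map_sum, trace_smulRight, hB.inv, map_smul, trace_one, h.dim, Finset.sum_const,
    Finset.card_univ, nsmul_eq_mul, smul_eq_mul, Fintype.card_eq_nat_card] at t
  have := congr($hc l)
  simp only [LinearMap.sum_apply, smulRight_apply, LinearMap.smul_apply, End.one_apply] at this
  rw [this]
  congr 1
  push_cast at t
  linarith

theorem Irr.design (h : Irr ρ) (hB : Form ρ B) (z : V) :
    ∑ g, B (ρ g z) z ^ 2 = (Nat.card G : ℚ) / 23 * B z z ^ 2 := by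
  have := congrArg (fun y => B y z) (h.avg hB z z z)
  simp only [map_sum, map_smul, LinearMap.sum_apply, LinearMap.smul_apply, smul_eq_mul] at this
  simp only [sq]
  rw [this]; ring

omit [Fintype G] in
/-- If the lines in an orbit are equiangular, their number is determined by the angle. -/
theorem Irr.index_line [Finite G] (h : Irr ρ) (hB : Form ρ B) {z : V} (hz : z ≠ 0) {a : ℚ}
    (ha : ∀ g, ρ g z = z ∨ ρ g z = -z ∨ B (ρ g z) z ^ 2 = a * B z z ^ 2) :
    ∃ H : Subgroup G, (1 - a) * 23 = (1 - 23 * a) * H.index := by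
  classical
  have := Fintype.ofFinite G
  let H : Subgroup G :=
    { carrier := {g | ρ g z = z ∨ ρ g z = -z}
      one_mem' := Or.inl (by simp)
      mul_mem' := fun {a b} ha hb => by
        change ρ (a * b) z = z ∨ ρ (a * b) z = -z
        rw [mul_app]
        rcases ha with ha | ha <;> rcases hb with hb | hb <;> simp [ha, hb]
      inv_mem' := fun {a} ha => by
        have := inv_app (ρ := ρ) a z
        rcases ha with ha | ha <;> rw [ha] at this
        · exact Or.inl this
        · exact Or.inr (by rw [map_neg] at this; exact neg_eq_iff_eq_neg.1 this) }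
  refine ⟨H, ?_⟩
  have d := h.design hB z
  have e : ∀ g, B (ρ g z) z ^ 2 = a * B z z ^ 2 + if g ∈ H then (1 - a) * B z z ^ 2 else 0 :=
    fun g => by
      split_ifs with k
      · rcases k with k | k <;> rw [k]
        · ring
        · simp only [map_neg, LinearMap.neg_apply]; ring
      · rcases ha g with e | e | e
        exacts [absurd (Or.inl e) k, absurd (Or.inr e) k, by rw [e, add_zero]]
  rw [Finset.sum_congr rfl fun g _ => e g, Finset.sum_add_distrib, ← Finset.sum_filter,
    Finset.sum_const, Finset.sum_const, Finset.card_univ, Fintype.card_eq_nat_card,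
    ← Fintype.card_subtype, Fintype.card_eq_nat_card, ← H.card_mul_index] at d
  have p : (0 : ℚ) < Nat.card H * B z z ^ 2 :=
    mul_pos (Nat.cast_pos.2 Nat.card_pos) (pow_pos (hB.pos z hz) 2)
  refine mul_left_cancel₀ p.ne' ?_
  simp only [nsmul_eq_mul, Nat.cast_mul] at d
  linarith

omit [Fintype G] in
theorem Irr.index23 [Finite G] (h : Irr ρ) (hB : Form ρ B) {z : V} (hz : z ≠ 0)
    (ha : ∀ g, ρ g z = z ∨ ρ g z = -z ∨ B (ρ g z) z = 0) : ∃ H : Subgroup G, H.index = 23 := by
  obtain ⟨H, e⟩ := h.index_line hB hz (a := 0) fun g => by simpa using ha g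
  exact ⟨H, by exact_mod_cast (show (H.index : ℚ) = 23 by linarith)⟩

omit [Fintype G] in
theorem Irr.index24 [Finite G] (h : Irr ρ) (hB : Form ρ B) {z : V} (hz : z ≠ 0)
    (ha : ∀ g, ρ g z = z ∨ ρ g z = -z ∨ 529 * B (ρ g z) z ^ 2 = B z z ^ 2) :
    ∃ H : Subgroup G, H.index = 24 := by
  obtain ⟨H, e⟩ := h.index_line hB hz (a := 1 / 529) fun g =>
    (ha g).imp_right fun k => k.imp_right fun k => by linarith
  exact ⟨H, by exact_mod_cast (show (H.index : ℚ) = 24 by linarith)⟩

end Cfsg.Lib.Feit23
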