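import Cfsg.Agent.Feit23.Fix

/-! Lattices with cyclic discriminant group generated by a fixed vector of an element of
order 23. -/

set_option autoImplicit false

namespace Cfsg.Lib.Feit23

open Module LinearMap Submodule Finset

variable {G V : Type*} [Group G] [AddCommGroup V] [Module ℚ V]
  {ρ : Representation ℚ G V} {B : LinearMap.BilinForm ℚ V} {L : Submodule ℤ V} {x : G} {u : V}
  {N : ℕ}

/-- The discriminant group of `L` is cyclic of order `N`, generated by the fixed vector `u` of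
norm `23 / N` of the element `x` of order 23. -/
structure CD (ρ : Representation ℚ G V) (B : LinearMap.BilinForm ℚ V) (x : G) (L : Submodule ℤ V)
    (u : V) (N : ℕ) : Prop where
  form : Form ρ B
  lat : L.IsLattice ℚ
  int : L ≤ B.dualSubmodule L
  ord : orderOf x = 23
  fix : ∀ y ∈ B.dualSubmodule L, ρ x y - y ∈ L
  xu : ρ x u = u
  fixed : ∀ y, ρ x y = y → ∃ c : ℚ, y = c • u
  mem : u ∈ B.dualSubmodule L
  one : ∃ l ∈ L, B u l = 1
  gen : ∀ y ∈ B.dualSubmodule L, ∃ k : ℤ, y - (k : ℚ) • u ∈ L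
  ordu : ∀ k : ℤ, (k : ℚ) • u ∈ L ↔ (N : ℤ) ∣ k
  norm : N * B u u = 23

theorem IsZ.nat (k : ℕ) : IsZ k := ⟨_, (Int.cast_natCast _).symm⟩

theorem pow_fix {y : V} (h : ρ x y = y) (i : ℕ) : ρ (x ^ i) y = y := by
  induction i with
  | zero => simp
  | succ i ih => rw [pow_succ, mul_app, h, ih]

theorem pow_sub_mem (hi : L ≤ B.dualSubmodule L) (h : ∀ y ∈ B.dualSubmodule L, ρ x y - y ∈ L) {y : V}
    (hy : y ∈ B.dualSubmodule L) (i : ℕ) : ρ (x ^ i) y - y ∈ L := by
  induction i with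
  | zero => simp
  | succ i ih =>
    have := add_mem (h _ (add_mem (hi ih) hy)) ih
    rwa [sub_add_cancel, sub_add_sub_cancel, ← mul_app, ← pow_succ'] at this

theorem sum_fix (hx : orderOf x = 23) (y : V) :
    ρ x (∑ i ∈ range 23, ρ (x ^ i) y) = ∑ i ∈ range 23, ρ (x ^ i) y := by
  have := sum_range_succ' (fun i => ρ (x ^ i) y) 23
  rw [sum_range_succ, ← hx, pow_orderOf_eq_one, pow_zero, hx, add_left_inj] at this
  rw [map_sum, this]
  exact sum_congr rfl fun i _ => by rw [← mul_app, ← pow_succ']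

theorem sum_pair (hB : Form ρ B) (hu : ρ x u = u) (y : V) :
    B (∑ i ∈ range 23, ρ (x ^ i) y) u = 23 * B y u := by
  rw [map_sum, LinearMap.sum_apply, sum_congr rfl fun i _ => (show B (ρ (x ^ i) y) u = B y u by
    rw [← hB.inv (x ^ i) y, pow_fix hu])]
  simp

theorem exists_ord (h : L.IsLattice ℚ) (y : V) :
    ∃ d : ℕ, 0 < d ∧ ∀ k : ℤ, (k : ℚ) • y ∈ L ↔ (d : ℤ) ∣ k := by
  have e : ∀ k : ℤ, (k : ℚ) • y ∈ L ↔ (addOrderOf (L.mkQ y) : ℤ) ∣ k := fun k => by
    rw [addOrderOf_dvd_iff_zsmul_eq_zero, ← map_zsmul, mkQ_apply, Quotient.mk_eq_zero,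
      Int.cast_smul_eq_zsmul]
  refine ⟨_, Nat.pos_of_ne_zero fun z => ?_, e⟩
  obtain ⟨k, k0, hk⟩ := exists_mul_mem h y
  have := (e k).1 (by simpa using hk)
  rw [z] at this
  simp at this
  omega

theorem dvd_sum_of_right [Fintype G] (φ : G → ℤ) (h : ∀ g, φ (g * x) = φ g) :
    (orderOf x : ℤ) ∣ ∑ g, φ g := by
  classical
  have h1 : ∀ (k : ℕ) g, φ (g * x ^ k) = φ g := fun k => by
    induction k with
    | zero => simp
    | succ k ih => intro g; rw [pow_succ, ← mul_assoc, h, ih]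
  rw [← sum_fiberwise univ (QuotientGroup.mk : G → G ⧸ Subgroup.zpowers x)]
  refine dvd_sum fun c _ => ?_
  obtain ⟨a, rfl⟩ := QuotientGroup.mk_surjective c
  rw [sum_congr rfl (g := fun _ => φ a) fun g hg => ?_, sum_const, nsmul_eq_mul]
  · refine Dvd.dvd.mul_right (dvd_of_eq (congrArg _ ?_)) _
    have := QuotientGroup.card_preimage_mk (Subgroup.zpowers x) {(a : G ⧸ Subgroup.zpowers x)}
    rw [Nat.card_zpowers, Nat.card_unique (α := ({_} : Set _)), mul_one] at this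
    rw [← this, ← Fintype.card_subtype, Fintype.card_eq_nat_card]
    rfl
  · obtain ⟨k, hk⟩ := mem_powers_iff_mem_zpowers.2 (QuotientGroup.eq.1 (mem_filter.1 hg).2.symm)
    rw [← h1 k a]
    simp only at hk
    rw [hk, mul_inv_cancel_left]

theorem Min.ord_not [Finite G] (h : Irr ρ) (m : Min ρ B L) {y : V} (hy : y ∈ B.dualSubmodule L)
    {d : ℕ} (d0 : 0 < d) (hd : ∀ k : ℤ, (k : ℚ) • y ∈ L ↔ (d : ℤ) ∣ k) : ¬ 23 ∣ d ∧ ¬ 4 ∣ d := by
  refine ⟨?_, ?_⟩ <;> rintro ⟨k, rfl⟩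
  · have := (hd k).1 (m.tors23 h (mem_tors.2 ⟨(IsZ.cast _).smul_mem hy, by
      rw [← mul_smul]; exact_mod_cast (hd _).2 dvd_rfl⟩))
    have := Nat.le_of_dvd (by omega) (Int.natCast_dvd_natCast.1 this)
    omega
  · have := m.sqfree h 2 ((IsZ.nat k).smul_mem hy) (by
      rw [← mul_smul]; exact_mod_cast (hd _).2 dvd_rfl)
    rw [← mul_smul] at this
    have := (hd ((2 * k : ℕ) : ℤ)).1 (by exact_mod_cast this)
    have := Nat.le_of_dvd (by omega) (Int.natCast_dvd_natCast.1 this)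
    omega

theorem Min.exists_cd [Finite G] (h : Irr ρ) (m : Min ρ B L) :
    ∃ x u d, CD ρ B x L u d ∧ ¬ 23 ∣ d ∧ ¬ 4 ∣ d := by
  have : Fact (Nat.Prime 23) := ⟨by norm_num⟩
  have := Fintype.ofFinite G
  obtain ⟨x, hx⟩ := exists_prime_orderOf_dvd_card' 23 (m.toIL.dvd_card h)
  obtain ⟨u, u0, xu, fx, hu, l, hl, e1⟩ : ∃ u, u ≠ 0 ∧ ρ x u = u ∧
      (∀ y, ρ x y = y → ∃ c : ℚ, y = c • u) ∧ u ∈ B.dualSubmodule L ∧ ∃ l ∈ L, B u l = 1 := by
    obtain ⟨w, w0, xw, fw⟩ := h.exists_fixed m.form hx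
    obtain ⟨k, k0, hk⟩ := exists_mul_mem m.lat w
    have k1 : (k : ℚ) ≠ 0 := by positivity
    let φ := B.dualSubmoduleToDual L ⟨_, m.int hk⟩
    have hφ : ∀ l : L, (φ l : ℚ) = k * B w l := fun l =>
      (BilinForm.dualSubmoduleParing_spec B ⟨_, m.int hk⟩ l).trans (by simp)
    obtain ⟨c, hc⟩ := (IsPrincipalIdealRing.principal (LinearMap.range φ)).principal
    have dv : ∀ l, c ∣ φ l := fun l => Ideal.mem_span_singleton.1 (hc.le ⟨l, rfl⟩)
    have c0 : (c : ℚ) ≠ 0 := fun z => by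
      obtain ⟨a, ha⟩ := dv ⟨_, hk⟩
      have := hφ ⟨_, hk⟩
      rw [ha, Int.cast_mul, z, zero_mul, map_smul] at this
      exact (mul_pos (by positivity) (mul_pos (by positivity) (m.form.pos w w0))).ne this
    obtain ⟨l, hl⟩ := hc.ge (mem_span_singleton_self c)
    refine ⟨((k : ℚ) / c) • w, smul_ne_zero (div_ne_zero k1 c0) w0, by rw [map_smul, xw],
      fun y hy => ?_, mem_dual.2 fun z hz => ?_, l, l.2, ?_⟩
    · obtain ⟨a, rfl⟩ := fw y hy
      exact ⟨a * c / k, by rw [← mul_smul]; congr 1; field_simp⟩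
    · obtain ⟨a, ha⟩ := dv ⟨z, hz⟩
      have := hφ ⟨z, hz⟩
      rw [ha, Int.cast_mul] at this
      exact ⟨a, by simp only [map_smul, LinearMap.smul_apply, smul_eq_mul]; field_simp; linarith⟩
    · have := hφ l
      rw [hl] at this
      simp only [map_smul, LinearMap.smul_apply, smul_eq_mul]; field_simp; linarith
  have iz : ∀ c : ℚ, c • u ∈ B.dualSubmodule L → IsZ c := fun c hc => by
    simpa [e1] using mem_dual.1 hc l hl
  obtain ⟨d, d0, hd⟩ := exists_ord m.lat u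
  have ps := fun y hy i => pow_sub_mem (ρ := ρ) (x := x) m.int (fun y => m.dual_fix h hx) (y := y) hy i
  refine ⟨x, u, d, ⟨m.form, m.lat, m.int, hx, fun y => m.dual_fix h hx, xu, fx, hu, ⟨l, hl, e1⟩,
    fun y hy => ?_, hd, ?_⟩, m.ord_not h hu d0 hd⟩
  · obtain ⟨c, hc⟩ := fx _ (sum_fix hx y)
    obtain ⟨s, rfl⟩ := iz c (hc ▸ sum_mem fun i _ => m.toIL.dinv _ y hy)
    obtain ⟨o, o0, ho⟩ := exists_ord m.lat y
    obtain ⟨a, b, e⟩ := Nat.isCoprime_iff_coprime.2 (((show Nat.Prime 23 by norm_num).coprime_iff_not_dvd).2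
      (m.ord_not h hy o0 ho).1)
    have e3 : (a : ℚ) * 23 + b * o = 1 := by exact_mod_cast e
    have e4 := sum_mem fun i (_ : i ∈ Finset.range 23) => ps y hy i
    rw [sum_sub_distrib, hc, sum_const, card_range, ← Nat.cast_smul_eq_nsmul ℚ] at e4
    refine ⟨a * s, ?_⟩
    convert sub_mem ((ho (b * o)).2 (dvd_mul_left _ _)) ((IsZ.cast a).smul_mem e4) using 1
    push_cast
    linear_combination (norm := module) (-e3) • y
  · have hv := (hd d).2 dvd_rfl
    obtain ⟨t, ht⟩ := mem_dual.1 hu _ hv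
    rw [map_smul, smul_eq_mul, Int.cast_natCast] at ht
    have t0 : 0 < t := by
      have : (0 : ℚ) < t := ht ▸ mul_pos (by positivity) (m.form.pos u u0)
      exact_mod_cast this
    have t1 : t ∣ 23 := by
      obtain ⟨c, hc⟩ := fx _ (sum_fix hx l)
      have hs : c • u ∈ L := hc ▸ sum_mem fun i _ => m.inv _ l hl
      obtain ⟨s, rfl⟩ := iz c (m.int hs)
      obtain ⟨s, rfl⟩ := (hd s).1 hs
      have := sum_pair m.form xu l
      rw [hc, m.form.symm l, e1] at this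
      simp only [map_smul, LinearMap.smul_apply, smul_eq_mul] at this
      refine ⟨s, Int.cast_injective (α := ℚ) ?_⟩
      push_cast at this ⊢
      rw [← ht]; linarith
    have t2 : 23 ∣ t := by
      obtain ⟨n, hn⟩ := m.toIL.dvd_card h
      choose φ hφ using fun g => mem_dual.1 (m.toIL.dinv g u hu) _ hv
      have a := dvd_sum_of_right (x := x) (fun g => φ g ^ 2) fun g => by
        congr 1
        exact Int.cast_injective (α := ℚ) (by rw [← hφ, ← hφ, mul_app, xu])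
      have b := h.design m.form u
      have c : ∑ g, φ g ^ 2 = n * t ^ 2 := Int.cast_injective (α := ℚ) (by
        push_cast
        rw [← ht, sum_congr rfl fun g _ => (show (φ g : ℚ) ^ 2 = d ^ 2 * B (ρ g u) u ^ 2 by
          rw [← hφ]; simp [mul_pow]), ← mul_sum, b, hn]
        push_cast; ring)
      rw [c, hx] at a
      have p : Prime (23 : ℤ) := Int.prime_iff_natAbs_prime.2 (by norm_num)
      refine p.dvd_of_dvd_pow ((p.dvd_or_dvd a).resolve_left fun k => h.not_sq_dvd m.form ?_)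
      obtain ⟨j, rfl⟩ := Int.natCast_dvd_natCast.1 (show ((23 : ℕ) : ℤ) ∣ n from k)
      exact ⟨j, by rw [hn]; ring⟩
    rw [ht, Int.dvd_antisymm t0.le (by norm_num) t1 t2]; rfl

end Cfsg.Lib.Feit23
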