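import Cfsg.Agent.Feit23.Lat

/-! An isometry of order 23 of a small elementary abelian discriminant group is trivial. -/

set_option autoImplicit false

namespace Cfsg.Lib.Feit23

open Module LinearMap

theorem pow_mod23 {q k : ℕ} (hq : q.Prime) (h1 : q ≤ 24) (h2 : q ≠ 23) (k1 : 0 < k) (k2 : k ≤ 11)
    (h : 1 ≡ q ^ k [MOD 23]) : k = 11 := by
  have : ∀ q < 25, ∀ k < 11, Nat.Prime q ∧ q ≠ 23 ∧ 0 < k → 1 % 23 ≠ q ^ k % 23 := by
    decide +kernel
  by_contra e
  exact this q (by omega) k (by omega) ⟨hq, h2, k1⟩ h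

theorem disc_triv {D : Type*} [AddCommGroup D] [Finite D] {q : ℕ} (hq : q.Prime) (h1 : q ≤ 24)
    (h2 : q ≠ 23) (hD : ∀ d : D, q • d = 0) (hc : Nat.card D ^ 2 ≤ q ^ 23) (X : End ℤ D)
    (hX : X ^ 23 = 1) (β : D →ₗ[ℤ] D →ₗ[ℤ] ZMod q) (sy : ∀ y z, β y z = β z y)
    (nd : ∀ z, (∀ y, β y z = 0) → z = 0) (iv : ∀ y z, β (X y) (X z) = β y z) (y : D) : X y = y := by
  classical
  have : Fact q.Prime := ⟨hq⟩
  have : Fact (Nat.Prime 23) := ⟨by norm_num⟩
  have := Fintype.ofFinite D
  obtain ⟨_⟩ : Nonempty (Module (ZMod q) D) := ⟨AddCommGroup.zmodModule hD⟩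
  let F : Submodule (ZMod q) D := ker ((X - 1).toAddMonoidHom.toZModLinearMap q)
  have mF : ∀ y : D, y ∈ F ↔ X y = y := fun y => by simp [F, sub_eq_zero]
  have c1 := Module.natCard_eq_pow_finrank (K := ZMod q) (V := D)
  have c2 := Module.natCard_eq_pow_finrank (K := ZMod q) (V := F)
  rw [Nat.card_zmod] at c1 c2
  have c3 := Equiv.Perm.card_fixedPoints_modEq (f := (⇑X : D → D)) (p := 23) (n := 1) (by
    funext y
    have := congr($hX y)
    rw [End.pow_apply] at this
    exact this)
  rw [Fintype.card_eq_nat_card, Fintype.card_eq_nat_card, c1,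
    show Nat.card (Function.fixedPoints X) = Nat.card F from
      Nat.card_congr (Equiv.subtypeEquivRight fun y => (mF y).symm), c2] at c3
  rw [c1, ← pow_mul, Nat.pow_le_pow_iff_right hq.one_lt] at hc
  by_contra e
  have lt : finrank (ZMod q) F < finrank (ZMod q) D :=
    Submodule.finrank_lt fun k => e ((mF y).1 (k.ge Submodule.mem_top))
  obtain ⟨k, hk⟩ := Nat.exists_eq_add_of_le lt.le
  rw [hk, pow_add] at c3
  have k11 := pow_mod23 (k := k) hq h1 h2 (by omega) (by omega)
    (Nat.ModEq.cancel_left_of_coprime (c := q ^ finrank (ZMod q) F)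
      (((Nat.coprime_primes (by norm_num) hq).2 h2.symm).pow_right _) (by rw [mul_one]; exact c3.symm))
  have f0 : F = ⊥ := Submodule.finrank_eq_zero.1 (by omega)
  have sm : ∀ (c : ZMod q) y, X (c • y) = c • X y := ZMod.map_smul X
  let ω : LinearMap.BilinForm (ZMod q) D := LinearMap.mk₂ (ZMod q)
    (fun y z => β y (X z) - β (X y) z) (fun a b c => by simp; ring)
    (fun c a b => by
      rw [sm, sy, sy (c • _), ZMod.map_smul, ZMod.map_smul, sy a, sy (X a), smul_sub])
    (fun a b c => by simp; ring) (fun c a b => by rw [sm, ZMod.map_smul, ZMod.map_smul, smul_sub])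
  have a : ω.IsAlt := fun y => by simp [ω, sy y]
  have b : ∀ z, (∀ y, ω y z = 0) → z = 0 := fun z e => by
    have e2 : (X ^ 2) z = z := sub_eq_zero.1 (nd _ fun y => by
      have := e ((X ^ 22) y)
      have r : X ((X ^ 22) y) = y := by rw [← End.mul_apply, ← pow_succ', hX]; rfl
      change β _ _ - β _ _ = 0 at this
      rw [← iv, r] at this
      rw [map_sub]; exact this)
    have e3 : ∀ n, ((X ^ 2) ^ n) z = z := fun n => by
      induction n with
      | zero => simp
      | succ n ih => rw [pow_succ, End.mul_apply, e2, ih]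
    have := e3 12
    rw [← pow_mul, show 2 * 12 = 23 + 1 from rfl, pow_succ, hX, one_mul, ← mF, f0] at this
    exact this
  have := Class.even_finrank_of_isAlt (B := ω) ⟨fun z e => b z fun y => by
    rw [← a.neg_eq, e, neg_zero], b⟩ a
  rw [show finrank (ZMod q) D = 11 by omega] at this
  exact absurd this (by decide)

end Cfsg.Lib.Feit23
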