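import Cfsg.Agent.Feit23.Glue
import Cfsg.Agent.S0400
import Cfsg.Agent.S0401
import Cfsg.Prelude.Def_Spor_Conway

/-! Feit's theorem on rational groups of degree 23. -/

set_option autoImplicit false

namespace Cfsg.Lib.Feit23

open Module LinearMap Submodule

variable {G V : Type*} [Group G] [AddCommGroup V] [Module ℚ V]
  {ρ : Representation ℚ G V} {B : LinearMap.BilinForm ℚ V} {L : Submodule ℤ V} {x : G} {u : V}
  {N : ℕ}

theorem CD.exists_sign (c : CD ρ B x L u N) (inv : ∀ g, ∀ y ∈ L, ρ g y ∈ L) (hN : N = 4 ∨ N = 6) :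
    ∃ ε : G →* ℤˣ, ∀ g, ((ε g : ℤ) : ℚ) • ρ g u - u ∈ L := by
  have : ∀ g, ∃ e : ℤˣ, ((e : ℤ) : ℚ) • ρ g u - u ∈ L := fun g => by
    obtain ⟨k, -, hk, -, -, d⟩ := c.coef inv g
    have : (N : ℤ) ∣ k - 1 ∨ (N : ℤ) ∣ k + 1 := by
      obtain ⟨q, r, r0, r1, rfl⟩ : ∃ q r : ℤ, 0 ≤ r ∧ r < 12 ∧ k = 12 * q + r :=
        ⟨k / 12, k % 12, by omega, by omega, by omega⟩
      rw [show (12 * q + r) * (12 * q + r) = 12 * (12 * q * q + 2 * q * r) + r * r by ring] at d
      generalize 12 * q * q + 2 * q * r = s at d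
      rcases hN with rfl | rfl <;> interval_cases r <;> omega
    rcases this with e | e
    · exact ⟨1, by convert add_mem hk ((c.ordu _).2 e) using 1; push_cast; module⟩
    · exact ⟨-1, by convert neg_mem (add_mem hk ((c.ordu _).2 e)) using 1; push_cast; module⟩
  choose ε hε using this
  refine ⟨MonoidHom.mk' ε fun g k => ?_, hε⟩
  have a : ((ε g * ε k : ℤ) : ℚ) • ρ (g * k) u - u ∈ L := by
    convert add_mem ((IsZ.cast (ε g)).smul_mem (inv g _ (hε k))) (hε g) using 1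
    rw [map_sub, map_smul, mul_app]; push_cast; module
  have b := sub_mem ((IsZ.cast (ε (g * k))).smul_mem a) ((IsZ.cast (ε g * ε k)).smul_mem (hε (g * k)))
  rw [show ((ε (g * k) : ℤ) : ℚ) • (((ε g * ε k : ℤ) : ℚ) • ρ (g * k) u - u) -
      ((ε g * ε k : ℤ) : ℚ) • (((ε (g * k) : ℤ) : ℚ) • ρ (g * k) u - u) =
      ((ε g * ε k - ε (g * k) : ℤ) : ℚ) • u by push_cast; module, c.ordu, ← Units.val_mul] at b
  generalize ε g * ε k = s at b
  generalize ε (g * k) = t at b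
  rcases Int.units_eq_one_or s with rfl | rfl <;> rcases Int.units_eq_one_or t with rfl | rfl <;>
    rcases hN with rfl | rfl <;> first | rfl | exact absurd b (by decide)

theorem CD.embed (h : Irr ρ) (c : CD ρ B x L u N) (inv : ∀ g, ∀ y ∈ L, ρ g y ∈ L)
    (hK : Rootless B L u) (hN : N = 4 ∨ N = 6) (w : leechLattice)
    (hw : ∀ v : leechLattice, sqNorm (v : GolayPt → ℤ) = 8 * N → ∃ g : Co0, g • v = w) :
    ∃ f : G →* Multiplicative (ZMod 2) ×
      (Co0 ⊓ MulAction.stabilizer (Equiv.Perm leechLattice) w : Subgroup _), Function.Injective f := by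
  obtain ⟨ε, hε⟩ := c.exists_sign inv hN
  set Λ := glue L u (((1 : ℤ) : ℚ) / N)
  have w0 : ((0 : V), (1 : ℚ)) ∈ Λ := mem_glue.2 ⟨0, by simp, 1, by simp⟩
  obtain ⟨F, hF, Fw⟩ : ∃ F : Λ ≃+ leechLattice, (∀ y : Λ,
      (sqNorm (F y : GolayPt → ℤ) : ℚ) = 8 * gform B N y y) ∧ F ⟨_, w0⟩ = w := by
    obtain ⟨F, hF⟩ := (c.leech h.dim hK (a := 1) (by omega)).1
    obtain ⟨γ, hγ⟩ := hw (F ⟨_, w0⟩) (Int.cast_injective (α := ℚ) (by rw [hF]; simp [gform_apply]))
    exact ⟨F.trans ⟨γ.1, γ.2.1⟩, fun y => by rw [← hF, ← γ.2.2 (F y)]; rfl, hγ⟩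
  let T : G → V × ℚ → V × ℚ := fun g p => (((ε g : ℤ) : ℚ) • ρ g p.1, p.2)
  have hT : ∀ g, ∀ p ∈ Λ, T g p ∈ Λ := fun g p hp => by
    obtain ⟨k, h1, h2⟩ := mem_glue.1 hp
    refine mem_glue.2 ⟨k, ?_, h2⟩
    convert add_mem ((IsZ.cast (ε g)).smul_mem (inv g _ h1)) ((IsZ.cast k).smul_mem (hε g)) using 1
    simp only [T, map_sub, map_smul]; module
  let f : G →* Function.End leechLattice :=
    { toFun := fun g v => F ⟨T g (F.symm v), hT g _ (F.symm v).2⟩
      map_one' := funext fun v => by simp [T]; rfl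
      map_mul' := fun g k => funext fun v => by
        change F _ = F _
        congr 2
        simp [T, mul_smul] }
  have fa : ∀ g v, f.toHomPerm g v = F ⟨T g (F.symm v), hT g _ (F.symm v).2⟩ := fun _ _ => rfl
  have hf : ∀ g, f.toHomPerm g ∈ Co0 ⊓ MulAction.stabilizer (Equiv.Perm leechLattice) w := fun g => by
    refine ⟨⟨fun a b => ?_, fun v => Int.cast_injective (α := ℚ) ?_⟩, ?_⟩
    · rw [fa, fa, fa, ← map_add]
      congr 1
      ext <;> simp [T]
    · conv_rhs => rw [← F.apply_symm_apply v]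
      rw [fa, hF, hF]
      have : ((ε g : ℤ) : ℚ) * (ε g : ℤ) = 1 := by exact_mod_cast Int.units_coe_mul_self (ε g)
      simp only [gform_apply, T, map_smul, LinearMap.smul_apply, smul_eq_mul, c.form.inv,
        ← mul_assoc, this, one_mul]
    · change f.toHomPerm g w = w
      rw [fa, ← Fw]
      simp [T]
  have : Fact (Nat.Prime 2) := ⟨Nat.prime_two⟩
  let e : ℤˣ ≃* Multiplicative (ZMod 2) := mulEquivOfPrimeCardEq (p := 2) (by simp) (by simp)
  refine ⟨(e.toMonoidHom.comp ε).prod (f.toHomPerm.codRestrict _ hf),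
    (injective_iff_map_eq_one _).2 fun g hg => h.inj ?_⟩
  have e1 : ε g = 1 := e.map_eq_one_iff.1 (congrArg Prod.fst hg)
  have e2 : f.toHomPerm g = 1 := congrArg (fun t => t.2.1) hg
  ext y
  obtain ⟨k, k0, hk⟩ := exists_mul_mem c.lat y
  have := fa g (F ⟨((k : ℚ) • y, 0), mem_glue.2 ⟨0, by simpa using hk, by simpa using IsZ.zero⟩⟩)
  rw [e2, Equiv.Perm.one_apply, F.apply_eq_iff_eq] at this
  have := congrArg (fun t => t.1.1) this
  simpa [T, e1, k0.ne'] using this.symm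

theorem Irr.feit [Finite G] (h : Irr ρ) (hidx : ∀ H : Subgroup G, H.index ≠ 23 ∧ H.index ≠ 24) :
    (∃ f : G →* Multiplicative (ZMod 2) × Spor.Co2, Function.Injective f) ∨
      ∃ f : G →* Multiplicative (ZMod 2) × Spor.Co3, Function.Injective f := by
  obtain ⟨B, L, x, u, N, c, inv, hN, h8, h23⟩ := h.exists_cd
  have hK : Rootless B L u := fun r hr h0 h2 => by
    obtain ⟨H, e⟩ := c.root_index h inv hN h23 hr h0 h2
    exact e.elim (hidx H).1 (hidx H).2
  rcases c.rootless h inv hN h8 hK with ⟨H, e⟩ | rfl | rfl | rfl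
  · exact absurd e (hidx H).2
  · obtain ⟨r, hr, h2⟩ := c.two_root h.dim hK
    obtain ⟨H, e⟩ := c.two_index h inv hK hr h2
    exact absurd e (hidx H).1
  · exact Or.inl (c.embed h inv hK (by simp) Spor.leechU fun v hv =>
      Agent.S0400.result v _ hv (by decide))
  · exact Or.inr (c.embed h inv hK (by simp) Spor.leechV fun v hv =>
      Agent.S0401.result v _ hv (by decide))

end Cfsg.Lib.Feit23
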