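import Cfsg.Agent.Feit23.Min

/-! An element of order 23 acts trivially on the discriminant group of a minimal lattice. -/

set_option autoImplicit false

namespace Cfsg.Lib.Feit23

open Module LinearMap Submodule

variable {G V : Type*} [Group G] [AddCommGroup V] [Module ℚ V] [Finite G]
  {ρ : Representation ℚ G V} {B : LinearMap.BilinForm ℚ V} {L : Submodule ℤ V} {x : G}

theorem Min.tors23 (h : Irr ρ) (m : Min ρ B L) : tors B L 23 ≤ L := by
  obtain ⟨n, hn⟩ := m.toIL.dvd_card h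
  refine m.tors_le h (by norm_num) hn fun ⟨k, e⟩ => h.not_sq_dvd m.form ⟨k, ?_⟩
  rw [hn, e]; ring

theorem Min.tors_fix (h : Irr ρ) (m : Min ρ B L) (hx : orderOf x = 23) {q : ℕ} (hq : q.Prime)
    {y : V} (hy : y ∈ tors B L q) : ρ x y - y ∈ L := by
  obtain ⟨n, hn⟩ := m.toIL.dvd_card h
  by_cases hd : ¬ q ∣ n
  · have := m.tors_le h hq hn hd hy
    exact sub_mem (m.inv x y this) this
  by_cases q23 : q = 23
  · have := m.tors23 h (q23 ▸ hy)
    exact sub_mem (m.inv x y this) this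
  have q0 : (0 : ℚ) < q := Nat.cast_pos.2 hq.pos
  let A := tors B L q
  have il : IL ρ ((q : ℚ) • B) A := ⟨m.form.smul q0, lat_of_le m.lat
    (dual_lat h.dim (by omega) m.form.toPos m.lat) (m.toIL.le_tors q) inf_le_left,
    m.toIL.tors_inv q, fun y hy => mem_dual.2 fun z hz => by
      simpa using mem_dual.1 hy.1 _ (mem_tors.1 hz).2⟩
  obtain ⟨c1, c2⟩ := m.scale h q0 il (m.toIL.le_tors q)
  let A' : Submodule ℤ A := L.comap A.subtype
  have cd : L.toAddSubgroup.relIndex A.toAddSubgroup = Nat.card (A ⧸ A') := rfl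
  rw [cd] at c1 c2
  have : Finite (A ⧸ A') := Nat.finite_of_card_ne_zero c2
  let R : G → End ℤ A := fun g => ((ρ g).restrictScalars ℤ).restrict (il.inv g)
  let X : End ℤ (A ⧸ A') := A'.mapQ A' (R x) fun y hy => m.inv x _ hy
  have hX : ∀ (k : ℕ) (y : A), (X ^ k) (Submodule.Quotient.mk y) =
      Submodule.Quotient.mk (R (x ^ k) y) := fun k => by
    induction k with
    | zero => exact fun y => congrArg Submodule.Quotient.mk (Subtype.ext (by simp [R]))
    | succ k ih =>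
      exact fun y => (ih (R x y)).trans
        (congrArg Submodule.Quotient.mk
          (Subtype.ext ((mul_app ..).symm.trans (by rw [← pow_succ]; rfl))))
  let f : A →ₗ[ℤ] A →ₗ[ℤ] ℤ := (((q : ℚ) • B).dualSubmoduleToDual A).comp (inclusion il.int)
  have hf : ∀ y z : A, (f y z : ℚ) = q * B y z := fun y z =>
    BilinForm.dualSubmoduleParing_spec ((q : ℚ) • B) (inclusion il.int y) z
  have sy : ∀ y z, f y z = f z y := fun y z => Int.cast_injective (α := ℚ) (by
    rw [hf, hf, m.form.symm])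
  let β0 : A →ₗ[ℤ] A →ₗ[ℤ] ZMod q := f.compr₂ (Int.castAddHom (ZMod q)).toIntLinearMap
  have z0 : ∀ y z, β0 y z = 0 ↔ IsZ (B y z) := fun y z => by
    change ((f y z : ℤ) : ZMod q) = 0 ↔ _
    rw [ZMod.intCast_zmod_eq_zero_iff_dvd]
    refine ⟨fun ⟨k, e⟩ => ⟨k, mul_left_cancel₀ q0.ne' ?_⟩, fun ⟨k, e⟩ => ⟨k, ?_⟩⟩
    · rw [← hf, e]; simp
    · refine Int.cast_injective (α := ℚ) ?_
      rw [hf, e]; simp
  let β := β0.liftQ₂ A' A' (fun y hy => LinearMap.ext fun z => (z0 y z).2 (by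
    rw [m.form.symm]; exact mem_dual.1 z.2.1 _ hy))
    fun z hz => LinearMap.ext fun y => (z0 y z).2 (mem_dual.1 y.2.1 _ hz)
  have := disc_triv hq (h.prime_le hq (hn ▸ (not_not.1 hd).mul_left _)) q23 (D := A ⧸ A')
    (fun d => by
      obtain ⟨y, rfl⟩ := A'.mkQ_surjective d
      rw [← map_nsmul, mkQ_apply, Quotient.mk_eq_zero]
      have := (mem_tors.1 y.2).2
      rwa [Nat.cast_smul_eq_nsmul] at this)
    (by exact_mod_cast c1) X (LinearMap.ext fun d => by
      obtain ⟨y, rfl⟩ := A'.mkQ_surjective d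
      rw [mkQ_apply, hX, ← hx, pow_orderOf_eq_one]; congr 1; ext; simp [R]) β
    (fun a b => by
      obtain ⟨y, rfl⟩ := A'.mkQ_surjective a
      obtain ⟨z, rfl⟩ := A'.mkQ_surjective b
      exact congrArg (Int.cast : ℤ → ZMod q) (sy y z))
    (fun b e => by
      obtain ⟨z, rfl⟩ := A'.mkQ_surjective b
      rw [mkQ_apply, Quotient.mk_eq_zero]
      refine m.max h (M := A ⊓ B.dualSubmodule A) (le_inf (m.toIL.le_tors q) fun l hl =>
        mem_dual.2 fun w hw => ?_) (fun g y hy => ⟨il.inv g y hy.1, mem_dual.2 fun w hw => ?_⟩)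
        (fun y hy => mem_dual.2 fun w hw => mem_dual.1 hy.2 w hw.1) ⟨z.2, mem_dual.2 fun w hw => ?_⟩
      · rw [m.form.symm]; exact mem_dual.1 hw.1 l hl
      · rw [m.form.adj]; exact mem_dual.1 hy.2 _ (il.inv _ w hw)
      · rw [m.form.symm]; exact (z0 ⟨w, hw⟩ z).1 (e (A'.mkQ ⟨w, hw⟩)))
    (fun a b => by
      obtain ⟨y, rfl⟩ := A'.mkQ_surjective a
      obtain ⟨z, rfl⟩ := A'.mkQ_surjective b
      refine congrArg (Int.cast : ℤ → ZMod q) (Int.cast_injective (α := ℚ) (?_ :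
        (f (R x y) (R x z) : ℚ) = f y z))
      rw [hf, hf]
      exact congrArg _ (m.form.inv x y z)) (A'.mkQ ⟨y, hy⟩)
  exact (Submodule.Quotient.eq A').1 this

theorem Min.dual_fix (h : Irr ρ) (m : Min ρ B L) (hx : orderOf x = 23) {y : V}
    (hy : y ∈ B.dualSubmodule L) : ρ x y - y ∈ L := by
  obtain ⟨k, k0, hk⟩ := exists_mul_mem m.lat y
  have nz : ∀ a : ℕ, IsZ a := fun a => ⟨_, (Int.cast_natCast _).symm⟩
  induction k using Nat.strong_induction_on generalizing y with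
  | _ k ih =>
  by_cases k1 : k = 1
  · rw [k1, Nat.cast_one, one_smul] at hk
    exact sub_mem (m.inv x y hk) hk
  obtain ⟨q, hq, k, rfl⟩ := Nat.exists_prime_and_dvd k1
  have k2 : 0 < k := Nat.pos_of_mul_pos_left k0
  have lt : k < q * k := by nlinarith [hq.one_lt]
  by_cases d : q ∣ k
  · obtain ⟨l, rfl⟩ := d
    refine ih _ lt hy k2 ?_
    have := m.sqfree h q ((nz l).smul_mem hy) (by rwa [← mul_smul, ← Nat.cast_mul, mul_assoc])
    rwa [← mul_smul, ← Nat.cast_mul] at this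
  · obtain ⟨a, b, e⟩ := Nat.isCoprime_iff_coprime.2 ((hq.coprime_iff_not_dvd).2 d)
    have e1 := ih _ lt ((nz q).smul_mem hy) k2 (by rwa [← mul_smul, ← Nat.cast_mul, mul_comm])
    have e2 := m.tors_fix h hx hq (mem_tors.2 ⟨(nz k).smul_mem hy, by
      rwa [← mul_smul, ← Nat.cast_mul]⟩)
    have e3 : (a : ℚ) * q + b * k = 1 := by exact_mod_cast e
    convert add_mem ((IsZ.cast a).smul_mem e1) ((IsZ.cast b).smul_mem e2) using 1
    rw [map_smul, map_smul, ← smul_sub, ← smul_sub, ← mul_smul, ← mul_smul, ← add_smul, e3, one_smul]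

end Cfsg.Lib.Feit23
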