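import Cfsg.Agent.Feit23.Psd

/-! A root orthogonal to the fixed vector generates a root system of type `A₂₂`. -/

set_option autoImplicit false

namespace Cfsg.Lib.Feit23

open Module LinearMap Submodule Finset

variable {G V : Type*} [Group G] [AddCommGroup V] [Module ℚ V]
  {ρ : Representation ℚ G V} {B : LinearMap.BilinForm ℚ V} {L : Submodule ℤ V} {x : G} {u r : V}
  {N : ℕ}

theorem CD.root_ne (c : CD ρ B x L u N) (h0 : B r u = 0) (h2 : B r r = 2) : ρ x r ≠ r := fun e => by
  obtain ⟨a, rfl⟩ := c.fixed r e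
  simp only [map_smul, LinearMap.smul_apply, smul_eq_mul] at h0 h2
  rw [h0] at h2
  norm_num at h2

theorem CD.root_val (c : CD ρ B x L u N) (hr : r ∈ L) (h0 : B r u = 0) (h2 : B r r = 2) :
    ∃ e : ℕ → ℕ, ∀ k, 0 < k → k < 12 → e k ∈ [0, 1, 2] ∧ B r (ρ (x ^ k) r) = B r r - (1 : ℕ) - e k := by
  choose a ha using fun k => mem_dual.1 (c.int hr) _ (c.pow_mem hr k)
  refine ⟨fun k => (1 - a k).toNat, fun k k0 k1 => ?_⟩
  have n1 := c.pow_ne (c.root_ne h0 h2) k0 (by omega : k < 23)
  have n2 := (c.pow k0 (by omega)).pow_ne n1 (i := 2) (by omega) (by omega)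
  have p1 := c.form.pos _ (sub_ne_zero.2 n1)
  have p2 := c.form.pos (ρ (x ^ k) r + r) fun e => n2 (by
    rw [sq, mul_app, eq_neg_of_add_eq_zero_left e, map_neg, eq_neg_of_add_eq_zero_left e, neg_neg])
  simp only [map_sub, map_add, LinearMap.sub_apply, LinearMap.add_apply, c.form.inv,
    c.form.symm (ρ _ r) r, ha, h2] at p1 p2
  have a1 : a k < 2 := by exact_mod_cast (show (a k : ℚ) < 2 by linarith)
  have a2 : -2 < a k := by exact_mod_cast (show -2 < (a k : ℚ) by linarith)
  rw [ha, h2]
  beta_reduce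
  generalize a k = b at a1 a2
  interval_cases b <;> simp <;> norm_num

theorem CD.root_zero (c : CD ρ B x L u N) (hr : r ∈ L) (h0 : B r u = 0) (h2 : B r r = 2)
    (h1 : B r (ρ x r) = -1) (k : ℕ) (k0 : 1 < k) (k1 : k < 12) : B r (ρ (x ^ k) r) = 0 := by
  obtain ⟨e, he⟩ := c.root_val hr h0 h2
  have t := c.tall r e 1 fun k a b => (he k a b).2
  have e1 : e 1 = 2 := by
    have := (he 1 (by omega) (by omega)).2
    rw [pow_one, h1, h2] at this
    exact_mod_cast (show (e 1 : ℚ) = 2 by push_cast at this; linarith)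
  have s := c.norm_eq r
  rw [sum_congr rfl fun i hi => (he (i + 1) (by omega) (by have := mem_range.1 hi; omega)).2,
    h0, h2] at s
  have s' : [e 2, e 3, e 4, e 5, e 6, e 7, e 8, e 9, e 10, e 11].sum = 10 := by
    simp only [sum_range_succ, sum_range_zero, zero_add, Nat.reduceAdd, e1] at s
    refine Nat.cast_injective (R := ℚ) ?_
    simp only [List.sum_cons, List.sum_nil]
    push_cast at s ⊢
    linarith
  have := go_spec [e 2, e 3, e 4, e 5, e 6, e 7, e 8, e 9, e 10, e 11] (by rw [s']; exact go_root)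
    (by
      simp only [List.forall_mem_cons, List.not_mem_nil, false_imp_iff, implies_true, and_true]
      refine ⟨?_, ?_, ?_, ?_, ?_, ?_, ?_, ?_, ?_, ?_⟩ <;> exact (he _ (by omega) (by omega)).1)
  rw [e1] at t
  rw [t] at this
  simp [List.replicate] at this
  have ek : e k = 1 := by interval_cases k <;> tauto
  rw [(he k (by omega) k1).2, ek, h2]
  norm_num

theorem CD.exists_cycle (c : CD ρ B x L u N) (hr : r ∈ L) (h0 : B r u = 0) (h2 : B r r = 2) :
    ∃ x, CD ρ B x L u N ∧ B r (ρ x r) = -1 := by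
  obtain ⟨e, he⟩ := c.root_val hr h0 h2
  by_contra k
  have s := c.norm_eq r
  have := sum_nonneg (s := Finset.range 11) (f := fun i => B r (ρ (x ^ (i + 1)) r)) fun i hi => by
    have i1 := mem_range.1 hi
    obtain ⟨a, b⟩ := he (i + 1) (by omega) (by omega)
    have n : B r (ρ (x ^ (i + 1)) r) ≠ -1 := fun z => k ⟨_, c.pow (by omega) (by omega), z⟩
    rw [b, h2] at n ⊢
    generalize e (i + 1) = t at a n
    simp only [List.mem_cons, List.not_mem_nil, or_false] at a
    rcases a with rfl | rfl | rfl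
    · norm_num
    · norm_num
    · norm_num at n
  rw [h0, h2] at s
  linarith

/-- The projections of an orthonormal basis of a 23-space to the sum zero hyperplane. -/
structure Frame (B : LinearMap.BilinForm ℚ V) (u : V) (E : Fin 23 → V) : Prop where
  gram : ∀ i k, B (E i) (E k) = (if i = k then 1 else 0) - 1 / 23
  orth : ∀ i, B (E i) u = 0

/-- The Cartan matrix of the cycle. -/
def cyc (n : ℕ) : ℤ := if red n = 0 then 2 else if red n = 1 then -1 else 0

theorem CD.exists_frame (c : CD ρ B x L u N) (hr : r ∈ L) (h0 : B r u = 0) (h2 : B r r = 2) :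
    ∃ E, Frame B u E ∧ ∀ i, E i - E 0 ∈ span ℤ (Set.range fun g => ρ g r) := by
  obtain ⟨x, c, h1⟩ := c.exists_cycle hr h0 h2
  have sh : ∀ (y : V) (i k : ℕ), i ≤ 23 →
      B (ρ (x ^ i) y) (ρ (x ^ k) y) = B y (ρ (x ^ (k + 23 - i)) y) := fun y i k hi => by
    rw [← c.form.inv (x ^ i) y, ← mul_app, ← pow_add, show i + (k + 23 - i) = k + 23 by omega,
      pow_add, ← c.ord, pow_orderOf_eq_one, mul_one]
  have g : ∀ n, B r (ρ (x ^ n) r) = cyc n := fun n => by
    have : red n < 12 := by rw [red]; omega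
    rw [c.red_eq, cyc]
    split_ifs with a b
    · rw [a]; simpa using h2
    · rw [b]; simpa using h1
    · simpa using c.root_zero hr h0 h2 h1 _ (by omega) this
  let e : V := (-1 / 23 : ℚ) • ∑ i ∈ Finset.range 23, (i : ℚ) • ρ (x ^ i) r
  have e1 : e - ρ x e = r := by
    have s := c.sum_eq r
    rw [h0, mul_zero, zero_smul, sum_range_succ'] at s
    have a : ρ x (∑ i ∈ Finset.range 23, (i : ℚ) • ρ (x ^ i) r) =
        ∑ i ∈ Finset.range 22, (i : ℚ) • ρ (x ^ (i + 1)) r + (22 : ℚ) • r := by
      rw [map_sum, sum_congr rfl fun i _ => by rw [map_smul, ← mul_app, ← pow_succ'],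
        sum_range_succ, show 22 + 1 = orderOf x from c.ord.symm, pow_orderOf_eq_one]
      simp
    rw [map_smul, a, ← smul_sub, sum_range_succ']
    simp only [Nat.cast_add, Nat.cast_one, add_smul, sum_add_distrib, one_smul, pow_zero, map_one,
      End.one_apply, Nat.cast_zero] at s ⊢
    linear_combination (norm := module) (-1 / 23 : ℚ) • s
  have e2 : B e u = 0 := by
    simp [e, map_sum, LinearMap.sum_apply, c.pow_u, h0, -map_pow]
  have e3 : ∀ k < 22, B e (ρ (x ^ k) r) = if k = 0 then 1 else 0 := fun k hk => by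
    have : ∀ k < 22, ∑ i ∈ Finset.range 23, (i : ℤ) * cyc (k + 23 - i) =
      if k = 0 then -23 else 0 := by decide +kernel
    have := congrArg (Int.cast : ℤ → ℚ) (this k hk)
    simp only [e, map_smul, map_sum, LinearMap.sum_apply, LinearMap.smul_apply, smul_eq_mul]
    rw [sum_congr rfl fun i hi => by rw [sh r i k (mem_range.1 hi).le, g]]
    push_cast at this
    rw [this]
    split_ifs <;> norm_num
  have e4 : ∀ k, ρ (x ^ (k + 1)) e = ρ (x ^ k) e - ρ (x ^ k) r := fun k => by
    rw [← e1, map_sub, pow_succ, mul_app, sub_sub_cancel]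
  have e5 : ∀ k < 22, B e (ρ (x ^ (k + 1)) e) = B e e - 1 := fun k => by
    induction k with
    | zero => intro _; rw [e4, map_sub, e3 0 (by omega)]; simp
    | succ k ih => intro hk; rw [e4, map_sub, e3 _ hk, ih (by omega)]; simp
  have e6 : B e e = 22 / 23 := by
    have s := c.norm_eq e
    rw [sum_congr rfl fun i hi => e5 i (by have := mem_range.1 hi; omega), e2] at s
    simp only [sum_const, card_range, nsmul_eq_mul] at s
    push_cast at s
    linarith
  refine ⟨fun i => ρ (x ^ (i : ℕ)) e, ⟨fun i k => ?_, fun i => by rw [c.pow_u, e2]⟩, fun i => ?_⟩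
  · rw [sh e i k i.2.le, ← c.pow_mod]
    split_ifs with a
    · rw [a, show (k + 23 - k : ℕ) % 23 = 0 by omega]; simp [e6]; norm_num
    · have := Fin.val_ne_of_ne a
      obtain ⟨j, hj⟩ := Nat.exists_eq_succ_of_ne_zero (show (k + 23 - i : ℕ) % 23 ≠ 0 by omega)
      rw [hj, e5 j (by omega), e6]; norm_num
  · change ρ (x ^ (i : ℕ)) e - ρ (x ^ 0) e ∈ _
    induction (i : ℕ) with
    | zero => simp
    | succ k ih => rw [e4, sub_right_comm]; exact sub_mem ih (subset_span ⟨_, rfl⟩)

theorem Frame.parseval {E : Fin 23 → V} (f : Frame B u E) (hd : finrank ℚ V = 23) (hB : Pos B)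
    (hu : N * B u u = 23) (y z : V) :
    23 * B y z = 23 * ∑ i, B y (E i) * B z (E i) + N * B y u * B z u ∧ ∑ i, B y (E i) = 0 := by
  have uu : B u u ≠ 0 := fun e => by rw [e] at hu; norm_num at hu
  have sg : ∀ (a : Fin 23 → ℚ) k, ∑ i, a i * B (E i) (E k) = a k - (∑ i, a i) / 23 := fun a k => by
    simp only [f.gram, mul_sub, sum_sub_distrib, mul_ite, mul_one, mul_zero, sum_ite_eq', mem_univ,
      if_true, ← sum_mul]
    ring
  have li : LinearIndependent ℚ fun i => E i + u := Fintype.linearIndependent_iff.2 fun a ha k => by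
    have a1 := congrArg (fun t => B t u) ha
    have a2 := congrArg (fun t => B t (E k)) ha
    simp only [map_sum, map_smul, map_add, LinearMap.sum_apply, LinearMap.smul_apply, smul_eq_mul,
      LinearMap.add_apply, f.orth, hB.symm u (E k), zero_add, add_zero, map_zero,
      LinearMap.zero_apply, sg, ← sum_mul, mul_eq_zero, uu, or_false] at a1 a2
    rwa [a1, zero_div, sub_zero] at a2
  let b := basisOfLinearIndependentOfCardEqFinrank li (by simp [hd])
  have z0 : ∀ y, ∑ i, B y (E i) = 0 := fun y => by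
    have : ∑ i, E i = 0 := hB.eq_zero (by
      simp only [map_sum, LinearMap.sum_apply]
      exact sum_eq_zero fun k _ => by simpa using sg (fun _ => 1) k)
    rw [← map_sum, this, map_zero]
  refine ⟨?_, z0 y⟩
  have := b.ext (f₁ := (23 : ℚ) • B y) (f₂ := (23 : ℚ) • ∑ i, B y (E i) • B (E i) + (N * B y u) • B u)
    fun k => by
      simp only [b, coe_basisOfLinearIndependentOfCardEqFinrank, map_add, LinearMap.sum_apply,
        LinearMap.smul_apply, smul_eq_mul, LinearMap.add_apply, f.orth, hB.symm u (E k), add_zero,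
        sg, z0, mul_zero, sum_const_zero]
      linear_combination (-B y u) * hu
  have := congr($this z)
  simp only [LinearMap.sum_apply, LinearMap.smul_apply, smul_eq_mul, LinearMap.add_apply,
    fun w => hB.symm w z] at this
  rw [hB.symm y z]
  exact this

end Cfsg.Lib.Feit23
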