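import Cfsg.Agent.Feit23.Lat
import Cfsg.Agent.S1632
import Cfsg.Agent.S0406
import Cfsg.Agent.S1587
import Cfsg.Agent.S1588

/-! Self-dual even rootless lattices of rank 24 in a rational space. -/

set_option autoImplicit false

namespace Cfsg.Lib.Feit23

open Module LinearMap Submodule Matrix

variable {W : Type*} [AddCommGroup W] [Module ℚ W] {B : LinearMap.BilinForm ℚ W}
  {Λ : Submodule ℤ W} {n : ℕ}

theorem exists_gram (hd : finrank ℚ W = n) (hn : 0 < n) (hB : Pos B) (h : Λ.IsLattice ℚ)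
    (hs : B.dualSubmodule Λ = Λ) : ∃ (A : Matrix (Fin n) (Fin n) ℤ) (e : (Fin n → ℤ) ≃+ Λ),
      A.IsSymm ∧ (∀ a, a ≠ 0 → 0 < a ⬝ᵥ A *ᵥ a) ∧ A.det = 1 ∧
        ∀ a c, ((a ⬝ᵥ A *ᵥ c : ℤ) : ℚ) = B (e a) (e c) := by
  obtain ⟨b, rfl⟩ := exists_basis hd hn h
  choose A hA using fun i j => mem_dual.1 (hs.ge (subset_span ⟨i, rfl⟩)) (b j) (subset_span ⟨j, rfl⟩)
  let e := (b.restrictScalars ℤ).equivFun.symm.toAddEquiv
  have he : ∀ a c, ((a ⬝ᵥ (Matrix.of A) *ᵥ c : ℤ) : ℚ) = B (e a) (e c) := fun a c => by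
    simp [e, Basis.equivFun_symm_apply, map_sum, LinearMap.sum_apply, hA, dotProduct, mulVec,
      Finset.mul_sum, mul_comm, mul_left_comm]
    rw [Finset.sum_comm]
  have sy : (Matrix.of A).IsSymm := Matrix.IsSymm.ext fun i j => Int.cast_injective (α := ℚ) (by
    simp only [of_apply, ← hA]; exact hB.symm ..)
  have ps : ∀ a, a ≠ 0 → 0 < a ⬝ᵥ (Matrix.of A) *ᵥ a := fun a ha => by
    rw [← Int.cast_pos (R := ℚ), he]
    exact hB.pos _ fun z => ha (e.map_eq_zero_iff.1 (Subtype.ext z))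
  refine ⟨Matrix.of A, e, sy, ps, ?_, he⟩
  have d := disc_eq hB hs.ge
  have m : LinearMap.BilinForm.toMatrix b B = (Matrix.of A).map (Int.cast : ℤ → ℚ) := by
    ext i j; simp [hA]
  rw [disc, hs, AddSubgroup.relIndex_self, m, ← Int.cast_det] at d
  have d1 : |(Matrix.of A).det| = 1 := by exact_mod_cast d.symm
  have p : ((Matrix.of A).map (Int.cast : ℤ → ℝ)).PosDef := .of_dotProduct_mulVec_pos
    (by ext i j; simpa using sy.apply i j) fun y hy => by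
      simpa [Spor.qf] using Spor.qf_map_pos _ sy ps (fun z => by rw [z] at d1; simp at d1) y hy
  have := p.det_pos
  rw [← Int.cast_det, Int.cast_pos] at this
  rwa [abs_of_pos this] at d1

theorem exists_leech (hd : finrank ℚ W = 24) (hB : Pos B) (h : Λ.IsLattice ℚ)
    (hs : B.dualSubmodule Λ = Λ) (ev : ∀ y ∈ Λ, IsZ (B y y / 2)) (h2 : ∀ y ∈ Λ, B y y ≠ 2) :
    (∃ F : Λ ≃+ leechLattice, ∀ y : Λ, (sqNorm (F y : GolayPt → ℤ) : ℚ) = 8 * B y y) ∧
      ∀ w ∈ Λ, B w w = 8 → ∃ c, B c c = 8 ∧ B w c = 0 ∧ (1 / 2 : ℚ) • (w - c) ∈ Λ := by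
  obtain ⟨A, e, sy, ps, dt, he⟩ := exists_gram hd (by omega) hB h hs
  have ev' : ∀ a, (2 : ℤ) ∣ a ⬝ᵥ A *ᵥ a := fun a => by
    obtain ⟨k, hk⟩ := ev _ (e a).2
    exact ⟨k, Int.cast_injective (α := ℚ) (by rw [he]; push_cast; linarith)⟩
  have h2' : ∀ a, a ⬝ᵥ A *ᵥ a ≠ 2 := fun a z => h2 _ (e a).2 (by rw [← he, z]; rfl)
  obtain ⟨c4, c6, c8⟩ := Agent.S1632.result A sy ps ev' dt h2'
  refine ⟨?_, fun w hw w8 => ?_⟩
  · obtain ⟨f, hf⟩ := Agent.S0406.result A sy ps ev' h2' c4 c6 c8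
    exact ⟨e.symm.trans f, fun y => by
      rw [AddEquiv.trans_apply, hf]; push_cast; rw [he]; simp⟩
  · obtain ⟨a, ha⟩ := e.surjective ⟨w, hw⟩
    have wa : w = e a := by rw [ha]
    have a8 : a ⬝ᵥ A *ᵥ a = 8 := Int.cast_injective (α := ℚ) (by rw [he, ← wa, w8]; rfl)
    have := Agent.S1588.result A sy ps ev' h2' c4 c6 c8 a a8
    obtain ⟨c, ⟨k8, kc⟩, hc⟩ := Set.exists_mem_notMem_of_ncard_lt_ncard
      (s := {a, -a}) (t := {y | y ⬝ᵥ A *ᵥ y = 8 ∧ ∀ i, (2 : ℤ) ∣ (a - y) i})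
      (by rw [this]; exact (Set.ncard_insert_le ..).trans_lt (by simp))
    simp only [Set.mem_insert_iff, Set.mem_singleton_iff, not_or] at hc
    have o := ((Agent.S1587.result A sy ps ev' h2' a c a8 k8 kc).resolve_left hc.1).resolve_left hc.2
    refine ⟨e c, by rw [← he, k8]; rfl, by rw [wa, ← he, o]; rfl, ?_⟩
    choose t ht using kc
    have : a - c = t + t := funext fun i => by rw [ht, two_mul]; rfl
    rw [wa, ← Submodule.coe_sub, ← map_sub, this, map_add, Submodule.coe_add, ← two_smul ℚ,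
      ← mul_smul]
    simp

end Cfsg.Lib.Feit23
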