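import Cfsg.Agent.Feit23.Rl
import Cfsg.Agent.Feit23.Leech

/-! Gluing to the Leech lattice. -/

set_option autoImplicit false

namespace Cfsg.Lib.Feit23

open Module LinearMap Submodule

variable {G V : Type*} [Group G] [AddCommGroup V] [Module ℚ V]
  {ρ : Representation ℚ G V} {B : LinearMap.BilinForm ℚ V} {L : Submodule ℤ V} {x : G} {u : V}
  {N : ℕ}

/-- The orthogonal sum with a line of norm `N`. -/
def gform (B : LinearMap.BilinForm ℚ V) (N : ℕ) : LinearMap.BilinForm ℚ (V × ℚ) :=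
  B.comp (fst ℚ V ℚ) (fst ℚ V ℚ) +
    (N : ℚ) • LinearMap.BilinForm.comp (LinearMap.mul ℚ ℚ) (snd ℚ V ℚ) (snd ℚ V ℚ)

theorem gform_apply (p q : V × ℚ) : gform B N p q = B p.1 q.1 + N * (p.2 * q.2) := rfl

/-- The glued lattice. -/
def glue (L : Submodule ℤ V) (u : V) (z : ℚ) : Submodule ℤ (V × ℚ) :=
  L.prod (span ℤ {1}) ⊔ span ℤ {(u, z)}

theorem mem_glue {z : ℚ} {p : V × ℚ} :
    p ∈ glue L u z ↔ ∃ k : ℤ, p.1 - (k : ℚ) • u ∈ L ∧ IsZ (p.2 - k * z) := by
  simp only [glue, mem_sup, mem_prod, mem_span_singleton]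
  constructor
  · rintro ⟨a, ⟨h1, m, h2⟩, _, ⟨k, rfl⟩, rfl⟩
    exact ⟨k, by simpa [Int.cast_smul_eq_zsmul] using h1, m, by simp [← h2]⟩
  · rintro ⟨k, h1, m, h2⟩
    exact ⟨(p.1 - (k : ℚ) • u, p.2 - k * z), ⟨h1, m, by simp [h2]⟩, _, ⟨k, rfl⟩, by
      ext <;> simp [Int.cast_smul_eq_zsmul]⟩

theorem CD.leech (hd : finrank ℚ V = 23) (c : CD ρ B x L u N) (hK : Rootless B L u) {a : ℤ}
    (ha : (N = 4 ∧ a = 1) ∨ (N = 6 ∧ a = 1) ∨ (N = 8 ∧ a = 3)) :
    (∃ F : glue L u (a / N) ≃+ leechLattice, ∀ y : glue L u (a / N),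
      (sqNorm (F y : GolayPt → ℤ) : ℚ) = 8 * gform B N y y) ∧
    ∀ w ∈ glue L u (a / N), gform B N w w = 8 → ∃ v, gform B N v v = 8 ∧ gform B N w v = 0 ∧
      (1 / 2 : ℚ) • (w - v) ∈ glue L u (a / N) := by
  have : FiniteDimensional ℚ V := finite_of_finrank_pos (by omega)
  have N0 := c.pos
  have hN : Even N := by rcases ha with ⟨rfl, -⟩ | ⟨rfl, -⟩ | ⟨rfl, -⟩ <;> decide
  obtain ⟨j, hj⟩ : ∃ j : ℤ, (23 + a * a : ℚ) = 2 * N * j := by
    rcases ha with ⟨rfl, rfl⟩ | ⟨rfl, rfl⟩ | ⟨rfl, rfl⟩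
    exacts [⟨3, by norm_num⟩, ⟨2, by norm_num⟩, ⟨2, by norm_num⟩]
  have sy : ∀ p q, gform B N p q = gform B N q p := fun p q => by
    rw [gform_apply, gform_apply, c.form.symm, mul_comm p.2]
  have ev : ∀ p ∈ glue L u (a / N), IsZ (gform B N p p / 2) := fun p hp => by
    obtain ⟨k, h1, m, h2⟩ := mem_glue.1 hp
    obtain ⟨s, hs⟩ := c.even hN h1
    obtain ⟨t, ht⟩ := c.pair h1
    obtain ⟨n, hn⟩ := hN
    simp only [map_sub, map_smul, LinearMap.sub_apply, LinearMap.smul_apply, smul_eq_mul,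
      c.form.symm u p.1, c.uu] at hs ht
    refine ⟨s + k * t + k * k * j + n * m * m + m * k * a, ?_⟩
    have hn' : (N : ℚ) = n + n := by exact_mod_cast hn
    rw [gform_apply, eq_add_of_sub_eq h2, show B p.1 p.1 = 2 * s + 2 * k * t + k * k * (23 / N) by
      linear_combination 2 * hs + 2 * k * ht]
    push_cast
    field_simp
    linear_combination (k * k : ℚ) * hj + N * m * m * hn'
  have L0 : ∀ l ∈ L, (l, (0 : ℚ)) ∈ glue L u (a / N) := fun l hl =>
    mem_glue.2 ⟨0, by simpa using hl, by simpa using IsZ.zero⟩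
  have w0 : ((0 : V), (1 : ℚ)) ∈ glue L u (a / N) := mem_glue.2 ⟨0, by simp, 1, by simp⟩
  refine exists_leech (by rw [finrank_prod, hd, finrank_self]) ⟨sy, fun p hp => ?_⟩
    ⟨(c.lat.fg.prod (fg_span_singleton _)).sup (fg_span_singleton _), eq_top_iff.2 fun p _ => ?_⟩
    (le_antisymm (fun p hp => ?_) fun p hp => mem_dual.2 fun q hq => ?_) ev fun p hp e => ?_
  · rw [gform_apply]
    by_cases e : p.1 = 0
    · have : p.2 ≠ 0 := fun z => hp (Prod.ext e z)
      have := mul_pos N0 (mul_self_pos.2 this)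
      linarith [c.form.nonneg p.1]
    · have := mul_nonneg N0.le (mul_self_nonneg p.2)
      linarith [c.form.pos _ e]
  · obtain ⟨k, k0, hk⟩ := exists_mul_mem c.lat p.1
    have k1 : (k : ℚ) ≠ 0 := by positivity
    convert add_mem (smul_mem (span ℚ _) (k : ℚ)⁻¹ (subset_span (L0 _ hk)))
      (smul_mem (span ℚ _) p.2 (subset_span w0)) using 1
    ext <;> simp [← mul_smul, k1]
  · obtain ⟨k, hk⟩ := c.gen p.1 (mem_dual.2 fun l hl => by
      simpa [gform_apply] using mem_dual.1 hp _ (L0 l hl))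
    obtain ⟨s, hs⟩ := mem_dual.1 hp _ w0
    obtain ⟨t, ht⟩ := mem_dual.1 hp (u, a / N) (mem_glue.2 ⟨1, by simp, 0, by simp⟩)
    obtain ⟨r, hr⟩ := c.pair hk
    simp only [gform_apply, map_zero, zero_add, mul_one, map_sub, map_smul, LinearMap.sub_apply,
      LinearMap.smul_apply, smul_eq_mul, c.uu] at hs ht hr
    have e : N * (t - r) = 23 * k + s * a := Int.cast_injective (α := ℚ) (by
      push_cast
      rw [← ht, ← hr, ← hs]
      field_simp
      ring)
    obtain ⟨i, hi⟩ : (N : ℤ) ∣ s - k * a := by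
      rcases ha with ⟨rfl, rfl⟩ | ⟨rfl, rfl⟩ | ⟨rfl, rfl⟩ <;> omega
    have hi : (s : ℚ) - k * a = N * i := by exact_mod_cast hi
    exact mem_glue.2 ⟨k, hk, i, by field_simp; linear_combination hs + hi⟩
  · convert ((ev _ (add_mem hp hq)).sub (ev p hp)).sub (ev q hq) using 1
    simp only [map_add, LinearMap.add_apply, sy q p]
    ring
  · obtain ⟨k, h1, m, h2⟩ := mem_glue.1 hp
    have hy : p.1 ∈ B.dualSubmodule L := by
      simpa using add_mem (c.int h1) ((IsZ.cast k).smul_mem c.mem)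
    have hσ : N * p.2 = (N * m + k * a : ℤ) := by
      rw [eq_add_of_sub_eq h2]; push_cast; field_simp
    generalize hs : N * m + k * a = σ at hσ
    have e' : N * B p.1 p.1 + σ * σ = 2 * N := by
      rw [gform_apply] at e; rw [← hσ]; linear_combination N * e
    by_cases f : ρ x p.1 = p.1
    · obtain ⟨i, hi⟩ := c.fixed _ f
      rw [hi] at hy h1 e'
      obtain ⟨i, rfl⟩ := c.isZ hy
      rw [← sub_smul, ← Int.cast_sub, c.ordu] at h1
      simp only [map_smul, LinearMap.smul_apply, smul_eq_mul] at e'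
      have e2 : 23 * (i * i) + σ * σ = 2 * N := Int.cast_injective (α := ℚ) (by
        push_cast; linear_combination e' - i * i * c.norm)
      have N8 : N ≤ 8 := by omega
      obtain rfl : i = 0 := mul_self_eq_zero.1 (by
        have := mul_self_nonneg i; have := mul_self_nonneg σ; omega)
      obtain ⟨_, _⟩ : -5 < σ ∧ σ < 5 := by constructor <;> nlinarith
      rcases ha with ⟨rfl, rfl⟩ | ⟨rfl, rfl⟩ | ⟨rfl, rfl⟩ <;> interval_cases σ <;> omega
    · have b := mul_le_mul_of_nonneg_left (c.bound hN hK hy f) N0.le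
      have N8 : (N : ℚ) ≤ 8 := by exact_mod_cast (show N ≤ 8 by omega)
      have s0 : σ = 0 := mul_self_eq_zero.1 (by
        have : σ * σ < 1 := by
          rw [← Int.cast_lt (R := ℚ)]; push_cast; nlinarith [sq_nonneg (N * B p.1 u)]
        have := mul_self_nonneg σ
        omega)
      have hl : p.1 ∈ L := by
        have : (N : ℤ) ∣ k := by rcases ha with ⟨rfl, rfl⟩ | ⟨rfl, rfl⟩ | ⟨rfl, rfl⟩ <;> omega
        simpa using add_mem h1 ((c.ordu k).2 this)
      have yy : B p.1 p.1 = 2 := mul_left_cancel₀ N0.ne' (by rw [s0] at e'; push_cast at e'; linarith)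
      obtain ⟨t, ht⟩ := c.pair hl
      have := c.bound hN hK hy f
      rw [yy, ht] at this
      have N4 : (4 : ℚ) ≤ N := by exact_mod_cast (show 4 ≤ N by omega)
      have t0 : t = 0 := mul_self_eq_zero.1 (by
        have : t * t < 1 := by
          rw [← Int.cast_lt (R := ℚ)]; push_cast; nlinarith [sq_nonneg (t : ℚ)]
        have := mul_self_nonneg t
        omega)
      exact hK _ hl (by rw [ht, t0]; rfl) yy

theorem CD.two_root (hd : finrank ℚ V = 23) (c : CD ρ B x L u 2) (hK : Rootless B L u) :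
    ∃ r ∈ L, B r r = 2 := by
  obtain ⟨v, v8, v0, hv⟩ := (c.half.leech hd (a := 3) (fun y hy e => hK y hy.1 (by simpa using e))
    (by simp)).2 (0, 1) (mem_glue.2 ⟨0, by simp, 1, by simp⟩) (by simp [gform_apply])
  have z : v.2 = 0 := by simpa [gform_apply] using v0
  obtain ⟨k, h1, m, h2⟩ := mem_glue.1 hv
  simp only [gform_apply, z, mul_zero, add_zero] at v8
  have e : 4 - 3 * k = 8 * m := Int.cast_injective (α := ℚ) (by
    simp only [Prod.smul_snd, Prod.snd_sub, z, smul_eq_mul] at h2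
    push_cast at h2 ⊢; linarith)
  obtain ⟨i, rfl⟩ : 4 ∣ k := by omega
  refine ⟨(-1 / 2 : ℚ) • v.1, ?_, ?_⟩
  · convert add_mem h1.1 ((c.ordu (2 * i)).2 (dvd_mul_right _ _)) using 1
    simp only [Prod.smul_fst, Prod.fst_sub]
    push_cast
    module
  · simp only [map_smul, LinearMap.smul_apply, smul_eq_mul, v8]
    norm_num

end Cfsg.Lib.Feit23
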