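import Cfsg.Agent.Feit23.Cyc

/-! Passing to an even lattice; the norm identity. -/

set_option autoImplicit false

namespace Cfsg.Lib.Feit23

open Module LinearMap Submodule Finset

variable {G V : Type*} [Group G] [AddCommGroup V] [Module ℚ V]
  {ρ : Representation ℚ G V} {B : LinearMap.BilinForm ℚ V} {L : Submodule ℤ V} {x : G} {u : V}
  {N : ℕ}

theorem CD.pos (c : CD ρ B x L u N) : (0 : ℚ) < N := Nat.cast_pos.2 (Nat.pos_of_ne_zero fun e => by
  have := c.norm
  rw [e] at this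
  norm_num at this)

theorem CD.uu (c : CD ρ B x L u N) : B u u = 23 / N := by
  rw [eq_div_iff c.pos.ne', mul_comm, c.norm]

theorem CD.ne (c : CD ρ B x L u N) : u ≠ 0 := fun e => by
  have := c.norm
  rw [e] at this
  simp at this

theorem CD.isZ (c : CD ρ B x L u N) {a : ℚ} (ha : a • u ∈ B.dualSubmodule L) : IsZ a := by
  obtain ⟨l, hl, e⟩ := c.one
  simpa [e] using mem_dual.1 ha l hl

theorem CD.pow_sub (c : CD ρ B x L u N) {y : V} (hy : y ∈ B.dualSubmodule L) (i : ℕ) :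
    ρ (x ^ i) y - y ∈ L := pow_sub_mem c.int c.fix hy i

theorem CD.pow_mem (c : CD ρ B x L u N) {y : V} (hy : y ∈ L) (i : ℕ) : ρ (x ^ i) y ∈ L := by
  simpa using add_mem (c.pow_sub (c.int hy) i) hy

theorem CD.pow_u (c : CD ρ B x L u N) (y : V) (i : ℕ) : B (ρ (x ^ i) y) u = B y u := by
  rw [← c.form.inv (x ^ i) y, pow_fix c.xu]

theorem CD.sum_eq (c : CD ρ B x L u N) (y : V) :
    ∑ i ∈ Finset.range 23, ρ (x ^ i) y = (N * B y u) • u := by
  obtain ⟨a, ha⟩ := c.fixed _ (sum_fix c.ord y)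
  have := sum_pair c.form c.xu y
  rw [ha] at this ⊢
  simp only [map_smul, LinearMap.smul_apply, smul_eq_mul] at this
  congr 1
  refine mul_right_cancel₀ (c.form.pos u c.ne).ne' ?_
  rw [this, ← c.norm]; ring

theorem CD.refl (c : CD ρ B x L u N) (y : V) {i j : ℕ} (h : i + j = 23) :
    B y (ρ (x ^ i) y) = B y (ρ (x ^ j) y) := by
  rw [← c.form.inv (x ^ j), ← mul_app, ← pow_add, add_comm, h, ← c.ord, pow_orderOf_eq_one,
    c.form.symm]
  simp

theorem CD.norm_eq (c : CD ρ B x L u N) (y : V) :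
    B y y + 2 * ∑ i ∈ Finset.range 11, B y (ρ (x ^ (i + 1)) y) = N * B y u ^ 2 := by
  have := congrArg (B y) (c.sum_eq y)
  rw [map_sum, map_smul, smul_eq_mul, sum_range_succ', show 22 = 11 + 11 from rfl, sum_range_add,
    ← sum_range_reflect (fun i => B y (ρ (x ^ (11 + i + 1)) y)),
    sum_congr rfl (f := fun j => B y (ρ (x ^ (11 + (11 - 1 - j) + 1)) y))
      (g := fun i => B y (ρ (x ^ (i + 1)) y)) fun i hi =>
      c.refl y (by have := Finset.mem_range.1 hi; omega)] at this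
  simp only [pow_zero, map_one, End.one_apply] at this
  linarith

theorem CD.parity (c : CD ρ B x L u N) {y : V} (hy : y ∈ L) : IsZ ((N * B y u ^ 2 - B y y) / 2) := by
  rw [← c.norm_eq y, add_sub_cancel_left, mul_div_cancel_left₀ _ two_ne_zero]
  exact IsZ.sum fun i _ => mem_dual.1 (c.int hy) _ (c.pow_mem hy _)

theorem CD.pair (c : CD ρ B x L u N) {y : V} (hy : y ∈ L) : IsZ (B y u) := by
  rw [c.form.symm]; exact mem_dual.1 c.mem y hy

theorem CD.even (c : CD ρ B x L u N) (hN : Even N) {y : V} (hy : y ∈ L) : IsZ (B y y / 2) := by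
  obtain ⟨k, rfl⟩ := hN
  convert ((IsZ.nat k).mul ((c.pair hy).mul (c.pair hy))).sub (c.parity hy) using 1
  push_cast; ring

theorem CD.pow_ne (c : CD ρ B x L u N) {y : V} (hy : ρ x y ≠ y) {i : ℕ} (h0 : 0 < i) (h1 : i < 23) :
    ρ (x ^ i) y ≠ y := fun e => by
  obtain ⟨m, hm⟩ := exists_pow_eq_self_of_coprime (x := x) (n := i) (by
    rw [c.ord]; exact (Nat.coprime_of_lt_prime h0.ne' h1 (by norm_num)).symm)
  exact hy (by rw [← hm, pow_fix e])

/-- No roots orthogonal to `u`. -/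
def Rootless (B : LinearMap.BilinForm ℚ V) (L : Submodule ℤ V) (u : V) : Prop :=
  ∀ y ∈ L, B y u = 0 → B y y ≠ 2

theorem CD.four (c : CD ρ B x L u N) (hN : Even N) (hK : Rootless B L u) {y : V} (hy : y ∈ L)
    (h0 : y ≠ 0) (hu : B y u = 0) : 4 ≤ B y y := by
  obtain ⟨k, hk⟩ := c.even hN hy
  have e : B y y = 2 * k := by linarith
  have a := hK y hy hu
  have b := c.form.pos y h0
  rw [e] at a b ⊢
  have a : k ≠ 1 := fun z => a (by rw [z]; norm_num)
  have b : 0 < k := by exact_mod_cast (show (0 : ℚ) < k by linarith)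
  have : (2 : ℚ) ≤ k := by exact_mod_cast (show 2 ≤ k by omega)
  linarith

theorem CD.bound (c : CD ρ B x L u N) (hN : Even N) (hK : Rootless B L u) {y : V}
    (hy : y ∈ B.dualSubmodule L) (hx : ρ x y ≠ y) : 44 + N * B y u ^ 2 ≤ 23 * B y y := by
  have := sum_le_sum (s := Finset.range 11) (f := fun i => B y (ρ (x ^ (i + 1)) y))
    (g := fun _ => B y y - 2) fun i hi => by
      have := c.four hN hK (c.pow_sub hy (i + 1))
        (sub_ne_zero.2 (c.pow_ne hx (by omega) (by have := mem_range.1 hi; omega)))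
        (by rw [map_sub, LinearMap.sub_apply, c.pow_u, sub_self])
      simp only [map_sub, LinearMap.sub_apply, c.form.inv, c.form.symm (ρ _ y) y] at this
      linarith
  rw [← c.norm_eq]
  simp only [sum_const, card_range, nsmul_eq_mul] at this
  push_cast at this
  linarith

/-- The vectors of the lattice with even inner product with `u`. -/
def half (B : LinearMap.BilinForm ℚ V) (L : Submodule ℤ V) (u : V) : Submodule ℤ V :=
  L ⊓ B.dualSubmodule (span ℤ {(1 / 2 : ℚ) • u})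

theorem mem_half {y : V} : y ∈ half B L u ↔ y ∈ L ∧ IsZ (B y u / 2) := by
  refine and_congr_right fun _ => mem_dual.trans ⟨fun h => ?_, fun h z hz => ?_⟩
  · simpa [div_eq_inv_mul] using h _ (mem_span_singleton_self _)
  · obtain ⟨k, rfl⟩ := mem_span_singleton.1 hz
    simpa [div_eq_inv_mul] using (IsZ.cast k).mul h

theorem CD.half (c : CD ρ B x L u N) : CD ρ B x (half B L u) ((1 / 2 : ℚ) • u) (4 * N) := by
  obtain ⟨l, hl, e⟩ := c.one
  have e' : B l u = 1 := by rw [c.form.symm, e]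
  have two : ∀ y ∈ L, (2 : ℚ) • y ∈ Feit23.half B L u := fun y hy =>
    mem_half.2 ⟨(IsZ.nat 2).smul_mem hy, by simpa using c.pair hy⟩
  have nu : (N : ℚ) • u ∈ L := (c.ordu N).2 dvd_rfl
  have gen : ∀ y ∈ B.dualSubmodule (Feit23.half B L u), ∃ k : ℤ,
      y - (k : ℚ) • (1 / 2 : ℚ) • u ∈ Feit23.half B L u := fun y hy => by
    obtain ⟨a, ha⟩ := mem_dual.1 hy _ (two l hl)
    rw [map_smul, smul_eq_mul] at ha
    obtain ⟨b, hb⟩ := c.gen (y - ((a : ℚ) / 2) • u) (mem_dual.2 fun z hz => by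
      have := mem_dual.1 hy (z - B z u • l) (mem_half.2 ⟨sub_mem hz ((c.pair hz).smul_mem hl), by
        simp [e', IsZ.zero]⟩)
      convert this using 1
      simp only [map_sub, map_smul, LinearMap.sub_apply, LinearMap.smul_apply, smul_eq_mul,
        c.form.symm u z, ← ha]
      ring)
    obtain ⟨s, hs⟩ := c.pair hb
    refine ⟨a + 2 * b + 2 * s * N, mem_half.2 ⟨?_, -11 * s, ?_⟩⟩
    · convert sub_mem hb ((IsZ.cast s).smul_mem nu) using 1
      push_cast; module
    · simp only [map_sub, map_smul, LinearMap.sub_apply, LinearMap.smul_apply, smul_eq_mul] at hs ⊢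
      push_cast
      linear_combination (1 / 2) * hs - (s / 2) * c.norm
  refine ⟨c.form, ?_, fun y hy => mem_dual.2 fun z hz => mem_dual.1 (c.int hy.1) z hz.1, c.ord,
    fun y hy => ?_, by rw [map_smul, c.xu], fun y hy => ?_, mem_dual.2 fun z hz => ?_,
    ⟨_, two l hl, by simp [e]⟩, gen, fun k => ⟨fun hk => ?_, ?_⟩, ?_⟩
  · refine ⟨c.lat.fg.of_le inf_le_left, eq_top_iff.2 (c.lat.span_eq_top.ge.trans (span_le.2 fun y hy => ?_))⟩
    have := smul_mem (span ℚ (Feit23.half B L u : Set V)) (1 / 2 : ℚ) (subset_span (two y hy))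
    simpa [← mul_smul] using this
  · obtain ⟨k, hk⟩ := gen y hy
    have := c.fix _ (c.int hk.1)
    rw [map_sub, map_smul, map_smul, c.xu, sub_sub_sub_cancel_right] at this
    exact mem_half.2 ⟨this, by
      rw [map_sub, LinearMap.sub_apply, ← c.form.inv x y u, c.xu, sub_self, zero_div]; exact IsZ.zero⟩
  · obtain ⟨a, rfl⟩ := c.fixed y hy
    exact ⟨2 * a, by module⟩
  · simpa [div_eq_inv_mul, c.form.symm u] using (mem_half.1 hz).2
  · obtain ⟨h1, h2⟩ := mem_half.1 hk
    rw [← mul_smul] at h1 h2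
    obtain ⟨j, hj⟩ := c.isZ (c.int h1)
    rw [hj] at h1 h2
    obtain ⟨i, rfl⟩ := (c.ordu j).1 h1
    obtain ⟨s, hs⟩ := h2
    simp only [map_smul, LinearMap.smul_apply, smul_eq_mul] at hs
    have a : 23 * i = 2 * s := Int.cast_injective (α := ℚ) (by
      push_cast at hs ⊢; linear_combination 2 * hs - i * c.norm)
    obtain ⟨t, rfl⟩ : 2 ∣ i := by omega
    exact ⟨t, Int.cast_injective (α := ℚ) (by push_cast at hj ⊢; linear_combination 2 * hj)⟩
  · rintro ⟨j, rfl⟩
    refine mem_half.2 ⟨?_, 23 * j, ?_⟩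
    · convert (IsZ.cast (2 * j)).smul_mem nu using 1
      push_cast; module
    · simp only [map_smul, LinearMap.smul_apply, smul_eq_mul]
      push_cast
      linear_combination j * c.norm
  · simp only [map_smul, LinearMap.smul_apply, smul_eq_mul]
    push_cast
    linear_combination c.norm

theorem Irr.exists_cd [Finite G] (h : Irr ρ) : ∃ B L x u N, CD ρ B x L u N ∧
    (∀ g, ∀ y ∈ L, ρ g y ∈ L) ∧ Even N ∧ N ≠ 8 ∧ ¬ 23 ∣ N := by
  obtain ⟨B, L, m⟩ := h.exists_min
  obtain ⟨x, u, d, c, h1, h2⟩ := m.exists_cd h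
  rcases Nat.even_or_odd d with e | ⟨k, e⟩
  · exact ⟨B, L, x, u, d, c, m.inv, e, by omega, h1⟩
  refine ⟨B, _, x, _, _, c.half, fun g y hy => mem_half.2 ⟨m.inv g y hy.1, ?_⟩, ⟨2 * d, by ring⟩,
    by omega, by omega⟩
  obtain ⟨a, ha⟩ := c.parity (m.inv g y hy.1)
  obtain ⟨b, hb⟩ := c.pair (m.inv g y hy.1)
  obtain ⟨s, hs⟩ := c.half.even ⟨2 * d, by ring⟩ hy
  rw [m.form.inv, hb, e] at ha
  have : (2 * k + 1) * b ^ 2 = 2 * (a + s) := Int.cast_injective (α := ℚ) (by
    push_cast at ha ⊢; linear_combination 2 * ha + 2 * hs)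
  obtain ⟨t, rfl⟩ : 2 ∣ b := Int.prime_two.dvd_of_dvd_pow
    ((Int.prime_two.dvd_or_dvd (Dvd.intro _ this.symm)).resolve_left (by omega))
  exact ⟨t, by rw [hb]; push_cast; ring⟩

end Cfsg.Lib.Feit23
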