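import Cfsg.Agent.Feit23.Basic

/-! Lattices in a rational space with a positive definite form: duals and discriminants. -/

set_option autoImplicit false

namespace Cfsg.Lib.Feit23

open Module LinearMap Submodule

/-- A rational number that is an integer. -/
def IsZ (a : ℚ) : Prop := ∃ k : ℤ, a = k

theorem IsZ.cast (k : ℤ) : IsZ k := ⟨k, rfl⟩

theorem IsZ.zero : IsZ 0 := ⟨0, by simp⟩

theorem IsZ.add {a b : ℚ} : IsZ a → IsZ b → IsZ (a + b)
  | ⟨k, e⟩, ⟨l, f⟩ => ⟨k + l, by rw [e, f, Int.cast_add]⟩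

theorem IsZ.neg {a : ℚ} : IsZ a → IsZ (-a)
  | ⟨k, e⟩ => ⟨-k, by rw [e, Int.cast_neg]⟩

theorem IsZ.sub {a b : ℚ} (h : IsZ a) (k : IsZ b) : IsZ (a - b) := by
  rw [sub_eq_add_neg]; exact h.add k.neg

theorem IsZ.mul {a b : ℚ} : IsZ a → IsZ b → IsZ (a * b)
  | ⟨k, e⟩, ⟨l, f⟩ => ⟨k * l, by rw [e, f, Int.cast_mul]⟩

theorem IsZ.sum {ι : Type*} {s : Finset ι} {f : ι → ℚ} (h : ∀ i ∈ s, IsZ (f i)) :
    IsZ (∑ i ∈ s, f i) :=
  Finset.sum_induction f IsZ (fun _ _ => IsZ.add) IsZ.zero h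

variable {V : Type*} [AddCommGroup V] [Module ℚ V] {B : LinearMap.BilinForm ℚ V}
  {L M : Submodule ℤ V} {n : ℕ}

theorem IsZ.smul_mem {a : ℚ} {y : V} : IsZ a → y ∈ L → a • y ∈ L
  | ⟨k, e⟩, h => by rw [e, Int.cast_smul_eq_zsmul]; exact L.smul_mem k h

theorem mem_dual {y : V} : y ∈ B.dualSubmodule L ↔ ∀ z ∈ L, IsZ (B y z) := by
  simp only [BilinForm.mem_dualSubmodule, mem_one, IsZ, eq_comm, algebraMap_int_eq,
    eq_intCast]

theorem exists_basis (hd : finrank ℚ V = n) (hn : 0 < n) (h : L.IsLattice ℚ) :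
    ∃ b : Basis (Fin n) ℚ V, span ℤ (Set.range b) = L := by
  have : FiniteDimensional ℚ V := finite_of_finrank_pos (by omega)
  have e : finrank ℤ L = n := by
    rw [← hd]; exact congrArg Cardinal.toNat (IsLattice.rank' ℚ L)
  let c := finBasisOfFinrankEq ℤ L e
  refine ⟨c.extendOfIsLattice ℚ, ?_⟩
  have : Set.range (c.extendOfIsLattice ℚ) = L.subtype '' Set.range c := by
    rw [← Set.range_comp]; congr 1; ext i; simp
  rw [this, ← Submodule.map_span, c.span_eq, map_subtype_top]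

theorem lat_span {ι : Type*} [Finite ι] (b : Basis ι ℚ V) : (span ℤ (Set.range b)).IsLattice ℚ :=
  ⟨fg_span (Set.finite_range b), by rw [span_span_of_tower, b.span_eq]⟩

theorem lat_of_le {N : Submodule ℤ V} (h : L.IsLattice ℚ) (k : N.IsLattice ℚ) (a : L ≤ M)
    (b : M ≤ N) : M.IsLattice ℚ :=
  IsLattice.of_le_of_isLattice_of_fg ℚ a (k.fg.of_le b)

theorem Pos.isSymm (h : Pos B) : B.IsSymm := ⟨h.symm⟩

theorem dual_lat (hd : finrank ℚ V = n) (hn : 0 < n) (hB : Pos B) (h : L.IsLattice ℚ) :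
    (B.dualSubmodule L).IsLattice ℚ := by
  obtain ⟨b, rfl⟩ := exists_basis hd hn h
  rw [BilinForm.dualSubmodule_span_of_basis _ hB.nondeg]
  exact lat_span _

theorem dual_dual (hd : finrank ℚ V = n) (hn : 0 < n) (hB : Pos B) (h : L.IsLattice ℚ) :
    B.dualSubmodule (B.dualSubmodule L) = L := by
  obtain ⟨b, rfl⟩ := exists_basis hd hn h
  exact BilinForm.dualSubmodule_dualSubmodule_of_basis _ hB.nondeg hB.isSymm b

theorem exists_pair (hd : finrank ℚ V = n) (hn : 0 < n) (hB : Pos B) (h : L.IsLattice ℚ) :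
    ∃ m ∈ B.dualSubmodule L, ∃ z ∈ L, B m z = 1 := by
  obtain ⟨b, rfl⟩ := exists_basis hd hn h
  rw [BilinForm.dualSubmodule_span_of_basis _ hB.nondeg]
  exact ⟨_, subset_span ⟨⟨0, hn⟩, rfl⟩, _, subset_span ⟨⟨0, hn⟩, rfl⟩, by
    rw [BilinForm.apply_dualBasis_left, if_pos rfl]⟩

/-- Every vector has a multiple in a lattice. -/
theorem exists_mul_mem (h : L.IsLattice ℚ) (y : V) : ∃ k : ℕ, 0 < k ∧ (k : ℚ) • y ∈ L := by
  have : y ∈ span ℚ (L : Set V) := by rw [h.span_eq_top]; trivial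
  induction this using span_induction with
  | mem y hy => exact ⟨1, one_pos, by simpa using hy⟩
  | zero => exact ⟨1, one_pos, by simp⟩
  | add y z _ _ a b =>
    obtain ⟨k, hk, a⟩ := a
    obtain ⟨l, hl, b⟩ := b
    refine ⟨k * l, mul_pos hk hl, ?_⟩
    have := add_mem ((IsZ.cast l).smul_mem a) ((IsZ.cast k).smul_mem b)
    convert this using 1
    push_cast
    module
  | smul c y _ a =>
    obtain ⟨k, hk, a⟩ := a
    refine ⟨c.den * k, mul_pos c.pos hk, ?_⟩
    have := (IsZ.cast c.num).smul_mem a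
    rw [← Rat.mul_den_eq_num] at this
    convert this using 1
    push_cast
    module

/-- The discriminant of an integral lattice. -/
noncomputable def disc (B : LinearMap.BilinForm ℚ V) (L : Submodule ℤ V) : ℕ :=
  L.toAddSubgroup.relIndex (B.dualSubmodule L).toAddSubgroup

theorem relIndex_eq {b c : Basis (Fin n) ℚ V} (h : span ℤ (Set.range b) ≤ span ℤ (Set.range c)) :
    ((span ℤ (Set.range b)).toAddSubgroup.relIndex (span ℤ (Set.range c)).toAddSubgroup : ℚ) =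
      |c.det b| :=
  AddSubgroup.relIndex_eq_abs_det _ _ h b c (span_int_eq_addSubgroupClosure _)
    (span_int_eq_addSubgroupClosure _)

theorem disc_eq (hB : Pos B) {b : Basis (Fin n) ℚ V}
    (h : span ℤ (Set.range b) ≤ B.dualSubmodule (span ℤ (Set.range b))) :
    (disc B (span ℤ (Set.range b)) : ℚ) = |(LinearMap.BilinForm.toMatrix b B).det| := by
  unfold disc
  rw [BilinForm.dualSubmodule_span_of_basis _ hB.nondeg] at h ⊢
  rw [relIndex_eq h, Basis.det_apply]
  congr 2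
  ext i j
  rw [Basis.toMatrix_apply, BilinForm.dualBasis_repr_apply, LinearMap.BilinForm.toMatrix_apply, hB.symm]

theorem disc_ne (hd : finrank ℚ V = n) (hn : 0 < n) (hB : Pos B) (h : L.IsLattice ℚ)
    (k : L ≤ B.dualSubmodule L) : disc B L ≠ 0 := fun e => by
  obtain ⟨b, rfl⟩ := exists_basis hd hn h
  have := disc_eq hB k
  rw [e, Nat.cast_zero, eq_comm, abs_eq_zero] at this
  exact (BilinForm.nondegenerate_iff_det_ne_zero b).1 hB.nondeg this

theorem disc_scale (hd : finrank ℚ V = n) (hn : 0 < n) (hB : Pos B) {c : ℚ} (hc : 0 < c)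
    (h : L.IsLattice ℚ) (h' : M.IsLattice ℚ) (k : L ≤ B.dualSubmodule L)
    (k' : M ≤ (c • B).dualSubmodule M) (a : L ≤ M) :
    (disc (c • B) M : ℚ) * (L.toAddSubgroup.relIndex M.toAddSubgroup : ℚ) ^ 2 = c ^ n * disc B L := by
  obtain ⟨b, rfl⟩ := exists_basis hd hn h
  obtain ⟨d, rfl⟩ := exists_basis hd hn h'
  rw [disc_eq hB k, disc_eq (hB.smul hc) k', relIndex_eq a, map_smul, Matrix.det_smul,
    ← LinearMap.BilinForm.toMatrix_mul_basis_toMatrix d b B, Matrix.det_mul, Matrix.det_mul,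
    Matrix.det_transpose, Basis.det_apply, Fintype.card_fin, abs_mul, abs_mul, abs_mul,
    abs_of_pos (pow_pos hc n)]
  ring

end Cfsg.Lib.Feit23
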