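import Cfsg.Agent.Feit23.Basic

/-! Elements of prime power order in a rational representation of degree 23. -/

set_option autoImplicit false

namespace Cfsg.Lib.Feit23

open Module LinearMap Polynomial

variable {G V : Type*} [Group G] [AddCommGroup V] [Module ℚ V]
  {ρ : Representation ℚ G V} {B : LinearMap.BilinForm ℚ V}

theorem cyc_dvd [FiniteDimensional ℚ V] {T : End ℚ V} {p k : ℕ} (hp : p.Prime)
    (h1 : T ^ p ^ (k + 1) = 1) (h2 : T ^ p ^ k ≠ 1) : cyclotomic (p ^ (k + 1)) ℚ ∣ T.charpoly := by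
  have : Fact p.Prime := ⟨hp⟩
  refine Dvd.dvd.trans ?_ (LinearMap.minpoly_dvd_charpoly T)
  by_contra h
  have a : minpoly ℚ T ∣ cyclotomic (p ^ (k + 1)) ℚ * (X ^ p ^ k - 1) := by
    rw [cyclotomic_prime_pow_mul_X_pow_sub_one]
    exact minpoly.dvd _ _ (by simp [h1])
  have b := ((cyclotomic.irreducible_rat (pow_pos hp.pos _)).coprime_iff_not_dvd.2 h).symm
    |>.dvd_of_dvd_mul_left a
  have := minpoly.dvd_iff.1 b
  simp only [map_sub, map_pow, aeval_X, map_one, sub_eq_zero] at this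
  exact h2 this

theorem Irr.cyc (h : Irr ρ) {g : G} {p k : ℕ} (hp : p.Prime) (hg : orderOf g = p ^ (k + 1)) :
    have := h.fin
    cyclotomic (p ^ (k + 1)) ℚ ∣ (ρ g).charpoly := by
  have := h.fin
  refine cyc_dvd hp (by rw [← map_pow, ← hg, pow_orderOf_eq_one, map_one]) fun e => ?_
  rw [← map_pow, ← map_one ρ] at e
  have := Nat.le_of_dvd (pow_pos hp.pos _) (orderOf_dvd_of_pow_eq_one (h.inj e))
  rw [hg] at this
  exact absurd this (not_le.2 (Nat.pow_lt_pow_right hp.one_lt (by omega)))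

theorem Irr.totient_le (h : Irr ρ) {g : G} {p k : ℕ} (hp : p.Prime)
    (hg : orderOf g = p ^ (k + 1)) : p ^ k * (p - 1) ≤ 23 := by
  have := h.fin
  have a := natDegree_le_of_dvd (h.cyc hp hg) (charpoly_monic _).ne_zero
  rwa [natDegree_cyclotomic, charpoly_natDegree, h.dim, Nat.totient_prime_pow_succ hp] at a

theorem Irr.prime_le [Finite G] (h : Irr ρ) {q : ℕ} (hq : q.Prime) (hd : q ∣ Nat.card G) :
    q ≤ 24 := by
  have : Fact q.Prime := ⟨hq⟩
  obtain ⟨g, hg⟩ := exists_prime_orderOf_dvd_card' q hd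
  have := h.totient_le (k := 0) hq (by simpa using hg)
  rw [pow_zero, one_mul] at this
  omega

theorem Irr.exists_fixed' (h : Irr ρ) (hB : Form ρ B) {x : G} (hx : orderOf x = 23) :
    ∃ u, u ≠ 0 ∧ ρ x u = u := by
  obtain ⟨z, hz, k⟩ := exists_rad h.dim (ω := B.compRight (ρ x) - B.compRight (ρ x⁻¹)) fun y => by
    change B y (ρ x y) - B y (ρ x⁻¹ y) = 0
    rw [← hB.adj, hB.symm y, sub_self]
  have e : ρ x z = ρ x⁻¹ z := sub_eq_zero.1 (hB.nondeg.2 _ fun y => by
    rw [map_sub]; exact k y)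
  have e2 : ρ (x ^ 2) z = z := by rw [sq, mul_app, e, app_inv]
  have e3 : ∀ n, ρ ((x ^ 2) ^ n) z = z := fun n => by
    induction n with
    | zero => simp
    | succ n ih => rw [pow_succ, mul_app, e2, ih]
  refine ⟨z, hz, ?_⟩
  have := e3 12
  rwa [← pow_mul, show 2 * 12 = 23 + 1 from rfl, pow_succ, ← hx, pow_orderOf_eq_one, one_mul] at this

theorem Irr.charpoly_eq (h : Irr ρ) (hB : Form ρ B) {x : G} (hx : orderOf x = 23) :
    have := h.fin
    (ρ x).charpoly = X ^ 23 - 1 := by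
  have := h.fin
  have : Fact (Nat.Prime 23) := ⟨by norm_num⟩
  have a := h.cyc (k := 0) (p := 23) (by norm_num) (by simpa using hx)
  rw [zero_add, pow_one] at a
  obtain ⟨u, hu, e⟩ := h.exists_fixed' hB hx
  have b : X - C 1 ∣ (ρ x).charpoly := dvd_iff_isRoot.2 ((End.hasEigenvalue_iff_isRoot_charpoly _ _).1
    (End.hasEigenvalue_of_hasEigenvector (x := u) ⟨by simpa using e, hu⟩))
  have c : IsCoprime (cyclotomic 23 ℚ) (X - C 1) :=
    ((irreducible_X_sub_C (1 : ℚ)).coprime_iff_not_dvd.2 fun k => by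
      have := dvd_iff_isRoot.1 k
      rw [IsRoot.def, eval_one_cyclotomic_prime] at this
      norm_num at this).symm
  have d := c.mul_dvd a b
  rw [map_one, cyclotomic_prime_mul_X_sub_one] at d
  have m : (X ^ 23 - 1 : ℚ[X]).Monic := by simpa using monic_X_pow_sub_C (1 : ℚ) (n := 23) (by omega)
  refine eq_of_monic_of_dvd_of_natDegree_le m (charpoly_monic _) d ?_
  rw [charpoly_natDegree, h.dim, ← C_1, natDegree_X_pow_sub_C]

theorem Irr.exists_fixed (h : Irr ρ) (hB : Form ρ B) {x : G} (hx : orderOf x = 23) :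
    ∃ u, u ≠ 0 ∧ ρ x u = u ∧ ∀ y, ρ x y = y → ∃ c : ℚ, y = c • u := by
  have := h.fin
  obtain ⟨u, hu, e⟩ := h.exists_fixed' hB hx
  refine ⟨u, hu, e, fun y hy => ?_⟩
  have a := finrank_eigenspace_le (ρ x) 1
  rw [h.charpoly_eq hB hx] at a
  have b := a.trans (rootMultiplicity_le_one_of_separable
    (X_pow_sub_one_separable_iff.2 (by norm_num)) _)
  obtain ⟨c, hc⟩ := (finrank_eq_one_iff_of_nonzero' (K := ℚ)
    (⟨u, by simpa using e⟩ : End.eigenspace (ρ x) 1) fun k => hu (congrArg Subtype.val k)).1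
    (le_antisymm b (finrank_pos_iff_exists_ne_zero.2
      ⟨⟨u, by simpa using e⟩, fun k => hu (congrArg Subtype.val k)⟩)) ⟨y, by simpa using hy⟩
  exact ⟨c, (congrArg Subtype.val hc).symm⟩

theorem Irr.trace_eq (h : Irr ρ) (hB : Form ρ B) {x : G} (hx : orderOf x = 23) :
    trace ℚ V (ρ x) = 0 := by
  have := h.fin
  let b := finBasisOfFinrankEq ℚ V h.dim
  rw [trace_eq_matrix_trace ℚ b, Matrix.trace_eq_neg_charpoly_coeff, charpoly_toMatrix,
    h.charpoly_eq hB hx]
  simp [coeff_X_pow, coeff_one]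

theorem Irr.not_sq_dvd [Finite G] (h : Irr ρ) (hB : Form ρ B) : ¬ 23 ^ 2 ∣ Nat.card G := fun k => by
  classical
  have := h.fin
  have : Fact (Nat.Prime 23) := ⟨by norm_num⟩
  obtain ⟨P, hP⟩ := Sylow.exists_subgroup_card_pow_prime 23 k
  have := Fintype.ofFinite P
  have : Invertible (Nat.card P : ℚ) := invertibleOfNonzero (by rw [hP]; norm_num)
  have a := Representation.card_inv_mul_sum_char_eq_finrank (ρ.comp P.subtype)
  have b : ∑ g : P, Representation.character (ρ.comp P.subtype) g = 23 := by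
    rw [Finset.sum_eq_single 1 (fun g _ hg => ?_) (by simp)]
    · simp [Representation.character, h.dim]
    · obtain ⟨i, hi, e⟩ := (Nat.dvd_prime_pow (by norm_num)).1 (hP ▸ orderOf_dvd_natCard g)
      rw [← Subgroup.orderOf_coe] at e
      interval_cases i
      · exact absurd (Subtype.ext (orderOf_eq_one_iff.1 e)) hg
      · exact h.trace_eq hB e
      · exact absurd (h.totient_le (k := 1) (by norm_num) e) (by norm_num)
  rw [b, hP] at a
  generalize finrank ℚ (Representation.invariants (ρ.comp P.subtype)) = n at a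
  have : (1 : ℚ) = 23 * n := by rw [← a]; norm_num
  have : (1 : ℕ) = 23 * n := by exact_mod_cast this
  omega

end Cfsg.Lib.Feit23
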