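import Cfsg.Agent.Feit23.Disc
import Cfsg.Agent.Feit23.Order

/-! Invariant integral lattices of minimal discriminant. -/

set_option autoImplicit false

namespace Cfsg.Lib.Feit23

open Module LinearMap Submodule

variable {G V : Type*} [Group G] [AddCommGroup V] [Module ℚ V]
  {ρ : Representation ℚ G V} {B : LinearMap.BilinForm ℚ V} {L : Submodule ℤ V}

/-- An invariant integral lattice. -/
structure IL (ρ : Representation ℚ G V) (B : LinearMap.BilinForm ℚ V) (L : Submodule ℤ V) :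
    Prop where
  form : Form ρ B
  lat : L.IsLattice ℚ
  inv : ∀ g, ∀ y ∈ L, ρ g y ∈ L
  int : L ≤ B.dualSubmodule L

/-- An invariant integral lattice of minimal discriminant. -/
structure Min (ρ : Representation ℚ G V) (B : LinearMap.BilinForm ℚ V) (L : Submodule ℤ V) :
    Prop extends IL ρ B L where
  min : ∀ B' L', IL ρ B' L' → disc B L ≤ disc B' L'

theorem IL.dinv (h : IL ρ B L) (g : G) (y : V) (hy : y ∈ B.dualSubmodule L) :
    ρ g y ∈ B.dualSubmodule L :=
  mem_dual.2 fun z hz => by rw [h.form.adj]; exact mem_dual.1 hy _ (h.inv _ _ hz)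

theorem Irr.exists_form [Finite G] (h : Irr ρ) : ∃ B, Form ρ B := by
  have := Fintype.ofFinite G
  have := h.fin
  let b := finBasisOfFinrankEq ℚ V h.dim
  let B0 : LinearMap.BilinForm ℚ V := Matrix.toBilin b 1
  have e : ∀ y z, B0 y z = ∑ i, b.repr y i * b.repr z i := fun y z => by
    simp [B0, Matrix.toBilin_apply, Matrix.one_apply]
  have nn : ∀ y, 0 ≤ B0 y y := fun y => by
    rw [e]; exact Finset.sum_nonneg fun i _ => mul_self_nonneg _
  refine ⟨∑ g, B0.comp (ρ g) (ρ g), ⟨fun y z => ?_, fun y hy => ?_⟩, fun k y z => ?_⟩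
  · simp only [LinearMap.sum_apply, BilinForm.comp_apply, e, mul_comm]
  · simp only [LinearMap.sum_apply, BilinForm.comp_apply]
    refine Finset.sum_pos' (fun g _ => nn _) ⟨1, Finset.mem_univ _, ?_⟩
    simp only [map_one, End.one_apply]
    refine (nn y).lt_of_ne' fun k => hy (b.ext_elem fun i => ?_)
    rw [e, Finset.sum_eq_zero_iff_of_nonneg fun i _ => mul_self_nonneg _] at k
    simpa using k i (Finset.mem_univ _)
  · simp only [LinearMap.sum_apply, BilinForm.comp_apply, ← mul_app]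
    exact Fintype.sum_equiv (Equiv.mulRight k) _ _ fun g => rfl

theorem Irr.exists_min [Finite G] (h : Irr ρ) : ∃ B L, Min ρ B L := by
  classical
  have := h.fin
  obtain ⟨B, hB⟩ := h.exists_form
  let b := finBasisOfFinrankEq ℚ V h.dim
  let L : Submodule ℤ V := span ℤ (Set.range fun p : G × Fin 23 => ρ p.1 (b p.2))
  have := lat_span b
  have hL : L.IsLattice ℚ := IsLattice.of_le_of_isLattice_of_fg ℚ (M := span ℤ (Set.range b))
    (span_mono (by rintro _ ⟨i, rfl⟩; exact ⟨((1 : G), i), by simp⟩)) (fg_span (Set.finite_range _))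
  have ex : ∃ k : ℕ, 0 < k ∧ ∀ y ∈ L, (k : ℚ) • y ∈ B.dualSubmodule L := by
    obtain ⟨s, hs⟩ := hL.fg
    choose k k0 hk using exists_mul_mem (dual_lat h.dim (by omega) hB.toPos hL)
    refine ⟨∏ y ∈ s, k y, Finset.prod_pos fun y _ => k0 y, fun y hy => ?_⟩
    rw [← hs] at hy
    induction hy using span_induction with
    | mem y hy =>
      rw [← Finset.prod_erase_mul _ _ hy, Nat.cast_mul, mul_smul]
      exact IsZ.smul_mem ⟨_, (Int.cast_natCast _).symm⟩ (hk y)
    | zero => simp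
    | add y z _ _ a b => rw [smul_add]; exact add_mem a b
    | smul c y _ a => rw [smul_comm]; exact smul_mem _ _ a
  obtain ⟨k, k0, hk⟩ := ex
  have il : IL ρ ((k : ℚ) • B) L := ⟨hB.smul (by positivity), hL, fun g y hy => by
    induction hy using span_induction with
    | mem y hy => obtain ⟨p, rfl⟩ := hy; exact subset_span ⟨(g * p.1, p.2), mul_app ..⟩
    | zero => simp
    | add y z _ _ a b => rw [map_add]; exact add_mem a b
    | smul c y _ a => rw [map_zsmul]; exact smul_mem _ _ a,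
    fun y hy => mem_dual.2 fun z hz => by simpa using mem_dual.1 (hk y hy) z hz⟩
  have ex : ∃ n, ∃ B L, IL ρ B L ∧ disc B L = n := ⟨_, _, _, il, rfl⟩
  obtain ⟨B, L, il, e⟩ := Nat.find_spec ex
  exact ⟨B, L, il, fun B' L' il' => e ▸ Nat.find_min' ex ⟨B', L', il', rfl⟩⟩

theorem Min.scale (h : Irr ρ) (m : Min ρ B L) {M : Submodule ℤ V} {c : ℚ} (hc : 0 < c)
    (k : IL ρ (c • B) M) (a : L ≤ M) :
    (L.toAddSubgroup.relIndex M.toAddSubgroup : ℚ) ^ 2 ≤ c ^ 23 ∧
      L.toAddSubgroup.relIndex M.toAddSubgroup ≠ 0 := by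
  have e := disc_scale h.dim (by omega) m.form.toPos hc m.lat k.lat m.int k.int a
  have p : (0 : ℚ) < disc B L :=
    Nat.cast_pos.2 (Nat.pos_of_ne_zero (disc_ne h.dim (by omega) m.form.toPos m.lat m.int))
  have l : (disc B L : ℚ) ≤ disc (c • B) M := Nat.cast_le.2 (m.min _ _ k)
  refine ⟨le_of_mul_le_mul_right ?_ p, fun z => ?_⟩
  · rw [← e, mul_comm]; gcongr
  · rw [z] at e
    have := mul_pos (pow_pos hc 23) p
    rw [← e] at this
    simp at this

/-- A minimal lattice is maximal among the invariant integral lattices. -/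
theorem Min.max (h : Irr ρ) (m : Min ρ B L) {M : Submodule ℤ V} (a : L ≤ M)
    (i : ∀ g, ∀ y ∈ M, ρ g y ∈ M) (k : M ≤ B.dualSubmodule M) : M ≤ L := by
  have l : M.IsLattice ℚ := lat_of_le m.lat (dual_lat h.dim (by omega) m.form.toPos m.lat) a
    fun y hy => mem_dual.2 fun z hz => mem_dual.1 (k hy) z (a hz)
  obtain ⟨e1, e2⟩ := m.scale h (c := 1) one_pos ⟨by simpa using m.form, l, i, by simpa using k⟩ a
  have : L.toAddSubgroup.relIndex M.toAddSubgroup ^ 2 ≤ 1 := by exact_mod_cast e1.trans_eq (one_pow _)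
  exact AddSubgroup.relIndex_eq_one.1 (by nlinarith [Nat.pos_of_ne_zero e2])

theorem Min.prim (h : Irr ρ) (m : Min ρ B L) {q : ℕ} (hq : 1 < q) :
    ¬ ∀ y ∈ L, ∀ z ∈ L, IsZ (B y z / q) := fun k => by
  have p : (0 : ℚ) < (q : ℚ)⁻¹ := by positivity
  have := (m.scale h p ⟨m.form.smul p, m.lat, m.inv, fun y hy => mem_dual.2 fun z hz => by
    simpa [div_eq_inv_mul] using k y hy z hz⟩ le_rfl).1
  rw [AddSubgroup.relIndex_self] at this
  have a : (q : ℚ)⁻¹ ^ 23 < 1 := pow_lt_one₀ p.le (inv_lt_one_of_one_lt₀ (by exact_mod_cast hq)) (by omega)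
  simp only [Nat.cast_one, one_pow] at this
  linarith

/-- The dual vectors killed by `q` modulo the lattice. -/
def tors (B : LinearMap.BilinForm ℚ V) (L : Submodule ℤ V) (q : ℕ) : Submodule ℤ V :=
  B.dualSubmodule L ⊓ L.comap ((q : ℚ) • (LinearMap.id : V →ₗ[ℚ] V)).toAddMonoidHom.toIntLinearMap

theorem mem_tors {q : ℕ} {y : V} : y ∈ tors B L q ↔ y ∈ B.dualSubmodule L ∧ (q : ℚ) • y ∈ L :=
  Iff.rfl

theorem IL.tors_inv (m : IL ρ B L) (q : ℕ) (g : G) (y : V) (hy : y ∈ tors B L q) :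
    ρ g y ∈ tors B L q :=
  mem_tors.2 ⟨m.dinv g y hy.1, by rw [← map_smul]; exact m.inv g _ (mem_tors.1 hy).2⟩

theorem IL.le_tors (m : IL ρ B L) (q : ℕ) : L ≤ tors B L q := fun _ hy =>
  mem_tors.2 ⟨m.int hy, IsZ.smul_mem ⟨_, (Int.cast_natCast _).symm⟩ hy⟩

theorem Min.sqfree (h : Irr ρ) (m : Min ρ B L) (q : ℕ) {y : V} (hy : y ∈ B.dualSubmodule L)
    (k : ((q * q : ℕ) : ℚ) • y ∈ L) : (q : ℚ) • y ∈ L := by
  let M : Submodule ℤ V := L ⊔ (tors B L (q * q)).map
    ((q : ℚ) • (LinearMap.id : V →ₗ[ℚ] V)).toAddMonoidHom.toIntLinearMap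
  have mm : ∀ y, y ∈ M ↔ ∃ l ∈ L, ∃ z ∈ tors B L (q * q), l + (q : ℚ) • z = y := fun y => by
    simp [M, mem_sup]
  have q0 : IsZ q := ⟨_, (Int.cast_natCast _).symm⟩
  refine m.max h (M := M) le_sup_left (fun g y hy => ?_) (fun y hy => mem_dual.2 fun z hz => ?_)
    ((mm _).2 ⟨0, zero_mem _, y, mem_tors.2 ⟨hy, k⟩, zero_add _⟩)
  · obtain ⟨l, hl, z, hz, rfl⟩ := (mm _).1 hy
    exact (mm _).2 ⟨_, m.inv g l hl, _, m.tors_inv _ g z hz, by simp⟩
  · obtain ⟨l, hl, y, h1, rfl⟩ := (mm _).1 hy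
    obtain ⟨l', hl', z, h2, rfl⟩ := (mm _).1 hz
    have e : B (l + (q : ℚ) • y) (l' + (q : ℚ) • z) =
        B l l' + q * B z l + q * B y l' + B y (((q * q : ℕ) : ℚ) • z) := by
      simp [m.form.symm l z]; ring
    rw [e]
    exact (((mem_dual.1 (m.int hl) _ hl').add (q0.mul (mem_dual.1 h2.1 _ hl))).add
      (q0.mul (mem_dual.1 h1.1 _ hl'))).add (mem_dual.1 h1.1 _ (mem_tors.1 h2).2)

variable [Finite G]

theorem IL.dvd_card (h : Irr ρ) (m : IL ρ B L) : 23 ∣ Nat.card G := by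
  have := Fintype.ofFinite G
  obtain ⟨y, hy, z, hz, e⟩ := exists_pair h.dim (by omega) m.form.toPos m.lat
  have a := congrArg (B y) (h.avg m.form y z z)
  rw [map_smul, e, map_sum] at a
  obtain ⟨k, hk⟩ : IsZ (∑ g, B y (B (ρ g y) z • ρ g z)) := IsZ.sum fun g _ =>
    mem_dual.1 hy _ ((mem_dual.1 (m.dinv g y hy) z hz).smul_mem (m.inv g z hz))
  rw [hk, smul_eq_mul] at a
  have : (Nat.card G : ℤ) = 23 * k := by
    have : (Nat.card G : ℚ) = 23 * k := by linarith
    exact_mod_cast this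
  exact Int.natCast_dvd_natCast.1 ⟨k, this⟩

theorem Min.tors_le (h : Irr ρ) (m : Min ρ B L) {q n : ℕ} (hq : q.Prime) (hn : Nat.card G = 23 * n)
    (hd : ¬ q ∣ n) : tors B L q ≤ L := fun y hy => by
  have := Fintype.ofFinite G
  have q0 : (q : ℚ) ≠ 0 := Nat.cast_ne_zero.2 hq.ne_zero
  rw [← dual_dual h.dim (by omega) m.form.toPos m.lat, mem_dual]
  intro w hw
  obtain ⟨a, ha⟩ := mem_dual.1 hw _ (mem_tors.1 hy).2
  rw [map_smul, smul_eq_mul] at ha
  by_contra k
  have qa : ¬ (q : ℤ) ∣ a := by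
    rintro ⟨c, rfl⟩
    exact k ⟨c, mul_left_cancel₀ q0 (by rw [m.form.symm, ha]; simp)⟩
  refine m.prim h hq.one_lt fun l hl l' hl' => ?_
  have e := congrArg (fun t => B t l') (h.avg m.form w y l)
  simp only [map_sum, map_smul, LinearMap.sum_apply, LinearMap.smul_apply, smul_eq_mul, hn] at e
  obtain ⟨s, hs⟩ : IsZ (∑ g, B (ρ g w) l * B (ρ g y) l') := IsZ.sum fun g _ =>
    (mem_dual.1 (m.dinv g w hw) l hl).mul (mem_dual.1 (m.dinv g y hy.1) l' hl')
  obtain ⟨t, ht⟩ := mem_dual.1 (m.int hl) l' hl'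
  rw [hs, ht] at e
  have e2 : (q : ℤ) * s = n * a * t := by
    have : (q : ℚ) * s = n * a * t := by rw [e, ← ha]; push_cast; ring
    exact_mod_cast this
  have pq := Nat.prime_iff_prime_int.1 hq
  obtain ⟨c, rfl⟩ := (pq.dvd_or_dvd (Dvd.intro _ e2)).resolve_left fun k =>
    (pq.dvd_or_dvd k).elim (fun k => hd (Int.natCast_dvd_natCast.1 k)) qa
  exact ⟨c, by rw [ht]; push_cast; field_simp⟩

end Cfsg.Lib.Feit23
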