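import Cfsg.Agent.Feit23.Half

/-! Positivity of circulant Gram matrices of order 23. -/

set_option autoImplicit false

namespace Cfsg.Lib.Feit23

open Module LinearMap Submodule Finset

variable {G V : Type*} [Group G] [AddCommGroup V] [Module ℚ V]
  {ρ : Representation ℚ G V} {B : LinearMap.BilinForm ℚ V} {L : Submodule ℤ V} {x : G} {u : V}
  {N : ℕ}

theorem CD.pow (c : CD ρ B x L u N) {j : ℕ} (h0 : 0 < j) (h1 : j < 23) : CD ρ B (x ^ j) L u N :=
  ⟨c.form, c.lat, c.int, by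
    rw [Nat.Coprime.orderOf_pow, c.ord]
    rw [c.ord]; exact Nat.coprime_of_lt_prime h0.ne' h1 (by norm_num),
    fun _ hy => c.pow_sub hy j, pow_fix c.xu j, fun y hy => c.fixed y (by
      by_contra e; exact c.pow_ne e h0 h1 hy), c.mem, c.one, c.gen, c.ordu, c.norm⟩

theorem CD.pow_mod (c : CD ρ B x L u N) (n : ℕ) : x ^ (n % 23) = x ^ n := by
  rw [← c.ord, pow_mod_orderOf]

theorem CD.psd (c : CD ρ B x L u N) (y : V) (z : Fin 23 → ℤ) :
    0 ≤ ∑ k : Fin 23, ((∑ i, z i * z (i + k) : ℤ) : ℚ) * B y (ρ (x ^ (k : ℕ)) y) := by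
  have := c.form.nonneg (∑ i : Fin 23, (z i : ℚ) • ρ (x ^ (i : ℕ)) y)
  simp only [map_sum, map_smul, LinearMap.sum_apply, LinearMap.smul_apply, smul_eq_mul] at this
  push_cast
  simp only [sum_mul]
  rw [sum_comm]
  rw [sum_congr rfl fun i _ => mul_sum ..] at this
  rw [sum_comm] at this
  refine this.trans_eq (sum_congr rfl fun i _ => ?_)
  refine (Fintype.sum_equiv (Equiv.addLeft i) _ _ fun k => ?_).symm
  rw [Equiv.coe_addLeft, Fin.val_add, c.pow_mod, pow_add, mul_app, c.form.inv]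
  ring

/-- The test vector. -/
def zt : Fin 23 → ℤ := ![5, 5, 4, 3, 2, 1, -1, -2, -3, -4, -5, -5, -5, -4, -4, -3, -1, 0, 1, 3, 4, 4, 5]

theorem zt_auto : ∀ k, ∑ i, zt i * zt (i + k) = ![294, 281, 249, 200, 135, 59, -20, -98, -168, -227,
    -269, -289, -289, -269, -227, -168, -98, -20, 59, 135, 200, 249, 281] k := by decide +kernel

theorem CD.test (c : CD ρ B x L u N) (y : V) :
    20 * B y (ρ (x ^ 6) y) + 98 * B y (ρ (x ^ 7) y) + 168 * B y (ρ (x ^ 8) y) +
      227 * B y (ρ (x ^ 9) y) + 269 * B y (ρ (x ^ 10) y) + 289 * B y (ρ (x ^ 11) y) ≤ 147 * B y y +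
      281 * B y (ρ (x ^ 1) y) + 249 * B y (ρ (x ^ 2) y) + 200 * B y (ρ (x ^ 3) y) +
      135 * B y (ρ (x ^ 4) y) + 59 * B y (ρ (x ^ 5) y) := by
  have := c.psd y zt
  obtain ⟨γ, hγ⟩ : ∃ γ : ℕ → ℚ, ∀ n, B y (ρ (x ^ n) y) = γ n := ⟨_, fun _ => rfl⟩
  have r : ∀ i j, i + j = 23 → γ i = γ j := fun i j e => by rw [← hγ, ← hγ, c.refl y e]
  have z : B y y = γ 0 := by rw [← hγ]; simp
  simp only [zt_auto, hγ, z] at this ⊢
  simp [Fin.sum_univ_succ] at this
  linarith [r 1 22 rfl, r 2 21 rfl, r 3 20 rfl, r 4 19 rfl, r 5 18 rfl, r 6 17 rfl, r 7 16 rfl,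
    r 8 15 rfl, r 9 14 rfl, r 10 13 rfl, r 11 12 rfl]

/-- Distance to the nearest multiple of 23. -/
def red (n : ℕ) : ℕ := min (n % 23) (23 - n % 23)

theorem CD.red_eq (c : CD ρ B x L u N) (y : V) (n : ℕ) :
    B y (ρ (x ^ n) y) = B y (ρ (x ^ red n) y) := by
  rw [← c.pow_mod n]
  rcases min_choice (n % 23) (23 - n % 23) with e | e <;> rw [red, e]
  exact c.refl y (by omega)

/-- One inequality. -/
def tst (o a b c d e f g h i j k : ℕ) : Bool :=
  Nat.ble (281 * a + 249 * b + 200 * c + 135 * d + 59 * e)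
    (o + 20 * f + 98 * g + 168 * h + 227 * i + 269 * j + 289 * k)

/-- All eleven inequalities. -/
def tall (o : ℕ) : List ℕ → Bool
  | [a1, a2, a3, a4, a5, a6, a7, a8, a9, a10, a11] =>
    tst o a1 a2 a3 a4 a5 a6 a7 a8 a9 a10 a11 &&
      tst o a2 a4 a6 a8 a10 a11 a9 a7 a5 a3 a1 &&
      tst o a3 a6 a9 a11 a8 a5 a2 a1 a4 a7 a10 &&
      tst o a4 a8 a11 a7 a3 a1 a5 a9 a10 a6 a2 &&
      tst o a5 a10 a8 a3 a2 a7 a11 a6 a1 a4 a9 &&
      tst o a6 a11 a5 a1 a7 a10 a4 a2 a8 a9 a3 &&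
      tst o a7 a9 a2 a5 a11 a4 a3 a10 a6 a1 a8 &&
      tst o a8 a7 a1 a9 a6 a2 a10 a5 a3 a11 a4 &&
      tst o a9 a5 a4 a10 a1 a8 a6 a3 a11 a2 a7 &&
      tst o a10 a3 a7 a6 a4 a9 a1 a11 a2 a8 a5 &&
      tst o a11 a1 a10 a2 a9 a3 a8 a4 a7 a5 a6
  | _ => false

theorem CD.tall (c : CD ρ B x L u N) (y : V) (e : ℕ → ℕ) (t : ℕ)
    (he : ∀ k, 0 < k → k < 12 → B y (ρ (x ^ k) y) = B y y - t - e k) :
    tall (147 * t) [e 1, e 2, e 3, e 4, e 5, e 6, e 7, e 8, e 9, e 10, e 11] = true := by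
  have r : ∀ j < 12, ∀ k < 12, 0 < j ∧ 0 < k → 0 < red (j * k) ∧ red (j * k) < 12 := by decide
  have a : ∀ j, 0 < j → j < 12 → tst (147 * t) (e (red (j * 1))) (e (red (j * 2))) (e (red (j * 3)))
      (e (red (j * 4))) (e (red (j * 5))) (e (red (j * 6))) (e (red (j * 7))) (e (red (j * 8)))
      (e (red (j * 9))) (e (red (j * 10))) (e (red (j * 11))) = true := fun j h0 h1 => by
    have H : ∀ k, 0 < k → k < 12 → B y (ρ ((x ^ j) ^ k) y) = B y y - t - e (red (j * k)) :=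
      fun k k0 k1 => by
        rw [← pow_mul, c.red_eq, he _ (r j h1 k k1 ⟨h0, k0⟩).1 (r j h1 k k1 ⟨h0, k0⟩).2]
    have := (c.pow h0 (by omega)).test y
    rw [H 1 (by omega) (by omega), H 2 (by omega) (by omega), H 3 (by omega) (by omega),
      H 4 (by omega) (by omega), H 5 (by omega) (by omega), H 6 (by omega) (by omega),
      H 7 (by omega) (by omega), H 8 (by omega) (by omega), H 9 (by omega) (by omega),
      H 10 (by omega) (by omega), H 11 (by omega) (by omega)] at this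
    rw [tst, Nat.ble_eq, ← Nat.cast_le (α := ℚ)]
    push_cast
    linarith
  simp only [Feit23.tall, Bool.and_eq_true, and_assoc]
  exact ⟨a 1 (by omega) (by omega), a 2 (by omega) (by omega), a 3 (by omega) (by omega),
    a 4 (by omega) (by omega), a 5 (by omega) (by omega), a 6 (by omega) (by omega),
    a 7 (by omega) (by omega), a 8 (by omega) (by omega), a 9 (by omega) (by omega),
    a 10 (by omega) (by omega), a 11 (by omega) (by omega)⟩

/-- Enumeration of the lists of given length and sum with entries from `R`. -/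
def go (R : List ℕ) : ℕ → ℕ → (List ℕ → Bool) → Bool
  | 0, s, P => Nat.blt 0 s || P []
  | n + 1, s, P => R.all fun a => Nat.blt s a || go R n (s - a) fun l => P (a :: l)

theorem go_spec {R : List ℕ} : ∀ (l : List ℕ) {P : List ℕ → Bool},
    go R l.length l.sum P = true → (∀ a ∈ l, a ∈ R) → P l = true
  | [], _, h, _ => by simpa [go] using h
  | a :: l, P, h, k => by
    rw [List.length_cons, go, List.all_eq_true] at h
    have := h a (k a (by simp))
    simp only [List.sum_cons, Bool.or_eq_true, Nat.blt_eq, add_tsub_cancel_left] at this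
    exact go_spec l (this.resolve_left (by omega)) fun b hb => k b (by simp [hb])

theorem go_root : go [0, 1, 2] 10 10
    (fun l => !tall (147 * 1) (2 :: l) || l == List.replicate 10 1) = true := by decide +kernel

theorem go_ten2 : go [0, 1, 2, 3, 4] 11 2 (fun l => !tall (147 * 2) l) = true := by decide +kernel

theorem go_ten4 : go [0, 1, 2, 3, 4] 11 4 (fun l => !tall (147 * 2) l) = true := by decide +kernel

end Cfsg.Lib.Feit23
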