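import Cfsg.Agent.Feit23.Root

/-! The discriminant when there is no root orthogonal to the fixed vector. -/

set_option autoImplicit false

namespace Cfsg.Lib.Feit23

open Module LinearMap Submodule Finset

variable {G V : Type*} [Group G] [AddCommGroup V] [Module ℚ V]
  {ρ : Representation ℚ G V} {B : LinearMap.BilinForm ℚ V} {L : Submodule ℤ V} {x : G} {u : V}
  {N : ℕ}

theorem CD.dinv (c : CD ρ B x L u N) (inv : ∀ g, ∀ y ∈ L, ρ g y ∈ L) (g : G) :
    ρ g u ∈ B.dualSubmodule L := IL.dinv ⟨c.form, c.lat, inv, c.int⟩ g u c.mem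

theorem CD.coef (c : CD ρ B x L u N) (inv : ∀ g, ∀ y ∈ L, ρ g y ∈ L) (g : G) :
    ∃ k b : ℤ, ρ g u - (k : ℚ) • u ∈ L ∧ N * B (ρ g u) u = b ∧ (N : ℤ) ∣ b - 23 * k ∧
      (N : ℤ) ∣ 23 * (1 - k * k) := by
  obtain ⟨k, hk⟩ := c.gen _ (c.dinv inv g)
  obtain ⟨s, hs⟩ := c.pair hk
  obtain ⟨t, ht⟩ := mem_dual.1 (c.int hk) _ hk
  simp only [map_sub, map_smul, LinearMap.sub_apply, LinearMap.smul_apply, smul_eq_mul, c.form.inv,
    c.form.symm u (ρ g u)] at hs ht
  refine ⟨k, N * s + 23 * k, hk, ?_, ⟨s, by ring⟩, ⟨t + 2 * k * s, Int.cast_injective (α := ℚ) ?_⟩⟩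
  · push_cast; linear_combination N * hs + k * c.norm
  · push_cast; linear_combination N * ht + 2 * k * N * hs - (1 - k * k) * c.norm

theorem CD.fixed_conj (c : CD ρ B x L u N) {g : G} (h : ρ x (ρ g u) = ρ g u) :
    ρ g u = u ∨ ρ g u = -u := by
  obtain ⟨a, ha⟩ := c.fixed _ h
  refine c.form.eq_or_neg (c.form.inv ..) ?_
  have := c.form.inv g u u
  rw [ha] at this ⊢
  simp only [map_smul, LinearMap.smul_apply, smul_eq_mul] at this ⊢
  linear_combination B u u * this

theorem CD.bound_conj (c : CD ρ B x L u N) (inv : ∀ g, ∀ y ∈ L, ρ g y ∈ L) (hN : Even N)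
    (hK : Rootless B L u) {g : G} (h : ρ x (ρ g u) ≠ ρ g u) {b : ℤ} (hb : N * B (ρ g u) u = b) :
    44 * N + b * b ≤ 529 := by
  have := mul_le_mul_of_nonneg_left (c.bound hN hK (c.dinv inv g) h) c.pos.le
  rw [c.form.inv] at this
  rw [← Int.cast_le (R := ℚ)]
  push_cast
  rw [← hb]
  linarith [c.norm]

theorem CD.not_ten (c : CD ρ B x L u 10) (inv : ∀ g, ∀ y ∈ L, ρ g y ∈ L) (hK : Rootless B L u)
    {g : G} (h : ρ x (ρ g u) ≠ ρ g u) : False := by
  obtain ⟨-, b, -, hb, -⟩ := c.coef inv g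
  have hy := c.dinv inv g
  have yy : B (ρ g u) (ρ g u) = 23 / 10 := by rw [c.form.inv]; simpa using c.uu
  generalize ρ g u = y at *
  have : ∀ k, 0 < k → k < 12 → ∃ e : ℕ, B y (ρ (x ^ k) y) = B y y - (2 : ℕ) - e := fun k k0 k1 => by
    have a := c.four (by decide) hK (c.pow_sub hy k) (sub_ne_zero.2 (c.pow_ne h k0 (by omega)))
      (by rw [map_sub, LinearMap.sub_apply, c.pow_u, sub_self])
    obtain ⟨t, ht⟩ := c.even (by decide) (c.pow_sub hy k)
    simp only [map_sub, LinearMap.sub_apply, c.form.inv, c.form.symm (ρ _ y) y] at a ht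
    have : 2 ≤ t := by exact_mod_cast (show (2 : ℚ) ≤ t by linarith)
    obtain ⟨e, rfl⟩ := Int.le.dest this
    exact ⟨e, by push_cast at ht ⊢; linarith⟩
  choose! e he using this
  have t := c.tall y e 2 he
  have s := c.norm_eq y
  rw [sum_congr rfl fun i hi => he (i + 1) (by omega) (by have := mem_range.1 hi; omega), yy] at s
  have s' : 20 * ([e 1, e 2, e 3, e 4, e 5, e 6, e 7, e 8, e 9, e 10, e 11].sum : ℕ) + b * b = 89 := by
    simp only [sum_range_succ, sum_range_zero, zero_add, Nat.reduceAdd] at s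
    refine Int.cast_injective (α := ℚ) ?_
    simp only [List.sum_cons, List.sum_nil]
    push_cast at s hb ⊢
    rw [← hb]
    linarith
  generalize hl : [e 1, e 2, e 3, e 4, e 5, e 6, e 7, e 8, e 9, e 10, e 11] = l at s' t
  have ll : l.length = 11 := by rw [← hl]; rfl
  obtain ⟨_, _⟩ : -10 < b ∧ b < 10 := by constructor <;> nlinarith
  have : l.sum = 2 ∨ l.sum = 4 := by interval_cases b <;> omega
  have m : ∀ a ∈ l, a ∈ [0, 1, 2, 3, 4] := fun a ha => by
    have := List.single_le_sum (fun _ _ => Nat.zero_le _) a ha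
    simp only [List.mem_cons, List.not_mem_nil, or_false]
    omega
  rcases this with e | e
  · have := go_spec l (by rw [e, ll]; exact go_ten2) m
    rw [t] at this
    exact absurd this (by decide)
  · have := go_spec l (by rw [e, ll]; exact go_ten4) m
    rw [t] at this
    exact absurd this (by decide)

theorem CD.rootless [Finite G] (h : Irr ρ) (c : CD ρ B x L u N) (inv : ∀ g, ∀ y ∈ L, ρ g y ∈ L)
    (hN : Even N) (h8 : N ≠ 8) (hK : Rootless B L u) :
    (∃ H : Subgroup G, H.index = 24) ∨ N = 2 ∨ N = 4 ∨ N = 6 := by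
  obtain ⟨g, hg⟩ : ∃ g, ρ x (ρ g u) ≠ ρ g u := by
    by_contra k
    push Not at k
    exact h.not_line c.ne fun g => c.fixed _ (k g)
  obtain ⟨-, b, -, hb, -⟩ := c.coef inv g
  have a := c.bound_conj inv hN hK hg hb
  have p := mul_self_nonneg b
  have N0 : 0 < N := Nat.cast_pos.1 c.pos
  by_cases e : N = 10
  · subst e; exact (c.not_ten inv hK hg).elim
  by_cases e : N = 12
  · subst e
    refine Or.inl (h.index24 c.form c.ne fun g => ?_)
    rw [← or_assoc]
    by_cases hg : ρ x (ρ g u) = ρ g u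
    · exact Or.inl (c.fixed_conj hg)
    obtain ⟨k, b, -, hb, d1, d2⟩ := c.coef inv g
    have a := c.bound_conj inv hN hK hg hb
    have b1 : b * b = 1 := by
      by_contra z
      obtain rfl : b = 0 := mul_self_eq_zero.1 (by have := mul_self_nonneg b; omega)
      obtain ⟨j, rfl⟩ : 12 ∣ k := by omega
      rw [show 12 * j * (12 * j) = 12 * (12 * j * j) by ring] at d2
      omega
    have b1 : (b : ℚ) * b = 1 := by exact_mod_cast b1
    right
    rw [c.uu]
    push_cast at hb ⊢
    rw [← hb] at b1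
    linarith
  obtain ⟨n, rfl⟩ := hN
  omega

/-- If `N = 2` there is no root. -/
theorem CD.two_index [Finite G] (h : Irr ρ) (c : CD ρ B x L u 2) (inv : ∀ g, ∀ y ∈ L, ρ g y ∈ L)
    (hK : Rootless B L u) {r : V} (hr : r ∈ L) (h2 : B r r = 2) : ∃ H : Subgroup G, H.index = 23 := by
  have pm : ∀ s ∈ L, B s s = 2 → B s u = 1 ∨ B s u = -1 := fun s hs s2 => by
    obtain ⟨a, ha⟩ := c.pair hs
    have a0 : a ≠ 0 := fun z => hK s hs (by rw [ha, z]; rfl) s2
    by_cases e : ρ x s = s
    · obtain ⟨t, rfl⟩ := c.fixed s e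
      obtain ⟨k, rfl⟩ := c.isZ (c.int hs)
      simp only [map_smul, LinearMap.smul_apply, smul_eq_mul, c.uu] at s2
      have : 23 * (k * k) = 4 := Int.cast_injective (α := ℚ) (by push_cast at s2 ⊢; linarith)
      omega
    · have := c.bound (by decide) hK (c.int hs) e
      rw [s2, ha] at this
      have : a * a ≤ 1 := by rw [← Int.cast_le (R := ℚ)]; push_cast at this ⊢; linarith
      have : a * a = 1 := by have := mul_self_pos.2 a0; omega
      rw [ha]
      exact_mod_cast Int.eq_one_or_neg_one_of_mul_eq_one this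
  have key : ∀ s ∈ L, B s s = 2 → B s u = B r u → s = r ∨ B s r = 0 := fun s hs s2 e => by
    rw [or_iff_not_imp_left]
    intro n
    have a := c.four (by decide) hK (sub_mem hs hr) (sub_ne_zero.2 n) (by simp [e])
    have p : 0 < B (s + r) (s + r) := c.form.pos _ fun z => by
      rw [eq_neg_of_add_eq_zero_left z] at e
      rcases pm r hr h2 with k | k <;> simp [k] at e <;> norm_num at e
    have q := pm _ (add_mem hs hr)
    obtain ⟨t, ht⟩ := mem_dual.1 (c.int hs) r hr
    simp only [map_sub, map_add, LinearMap.sub_apply, LinearMap.add_apply, c.form.symm r s, s2, h2,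
      ht, e] at a p q
    have a : t ≤ 0 := by exact_mod_cast (show (t : ℚ) ≤ 0 by linarith)
    have p : -2 < t := by exact_mod_cast (show -2 < (t : ℚ) by linarith)
    rw [ht]
    interval_cases t
    · exfalso
      rcases q (by norm_num) with k | k <;> rcases pm r hr h2 with j | j <;> linarith
    · rfl
  refine h.index23 c.form (z := r) (fun e => by rw [e] at h2; simp at h2) fun g => ?_
  have s2 : B (ρ g r) (ρ g r) = 2 := by rw [c.form.inv, h2]
  by_cases e : B (ρ g r) u = B r u
  · exact (key _ (inv g r hr) s2 e).imp_right Or.inr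
  · refine Or.inr ((key _ (neg_mem (inv g r hr)) (by simpa using s2) ?_).imp neg_eq_iff_eq_neg.1
      fun k => by simpa using k)
    rw [map_neg, LinearMap.neg_apply]
    rcases pm _ (inv g r hr) s2 with k | k <;> rcases pm r hr h2 with j | j <;> simp_all

end Cfsg.Lib.Feit23
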