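import Cfsg.Agent.Feit23.Frame

/-! A root orthogonal to the fixed vector gives a subgroup of index 23 or 24. -/

set_option autoImplicit false

namespace Cfsg.Lib.Feit23

open Module LinearMap Submodule Finset

variable {G V : Type*} [Group G] [AddCommGroup V] [Module ℚ V]
  {ρ : Representation ℚ G V} {B : LinearMap.BilinForm ℚ V} {L M : Submodule ℤ V} {x : G} {u r : V}
  {N : ℕ} {E : Fin 23 → V}

theorem Pos.eq_or_neg (h : Pos B) {y z : V} (e : B y y = B z z) (k : B y z ^ 2 = B z z ^ 2) :
    y = z ∨ y = -z := by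
  rcases sq_eq_sq_iff_eq_or_eq_neg.1 k with k | k
  · exact Or.inl (sub_eq_zero.1 (h.eq_zero (by
      simp only [map_sub, LinearMap.sub_apply, h.symm z y]; linarith)))
  · exact Or.inr (eq_neg_of_add_eq_zero_left (h.eq_zero (by
      simp only [map_add, LinearMap.add_apply, h.symm z y]; linarith)))

/-- Integral coordinates with respect to a frame. -/
def Crd (B : LinearMap.BilinForm ℚ V) (E : Fin 23 → V) (y : V) (m : Fin 23 → ℤ) : Prop :=
  ∀ i, B y (E i) = m i - (∑ j, m j : ℤ) / 23

theorem Frame.crd (f : Frame B u E) (hd : finrank ℚ V = 23) (hB : Pos B) (hu : N * B u u = 23)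
    (hE : ∀ i, E i - E 0 ∈ M) {y : V} (hy : y ∈ B.dualSubmodule M) :
    ∃ m, Crd B E y m ∧ |∑ j, m j| ≤ 11 := by
  choose n hn using fun i => mem_dual.1 hy _ (hE i)
  have s := (f.parseval hd hB hu y y).2
  have e : ∀ i, B y (E i) = n i + B y (E 0) := fun i => by rw [← hn, map_sub, sub_add_cancel]
  rw [sum_congr rfl fun i _ => e i, sum_add_distrib] at s
  refine ⟨fun i => n i - (∑ j, n j + 11) / 23, fun i => ?_, ?_⟩
  · generalize (∑ j, n j + 11) / 23 = t
    simp only [sum_const, card_univ, Fintype.card_fin, nsmul_eq_mul, sum_sub_distrib] at s ⊢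
    push_cast at s ⊢
    rw [e i]
    linarith
  · simp only [sum_const, card_univ, Fintype.card_fin, nsmul_eq_mul, sum_sub_distrib]
    rw [abs_le]
    push_cast
    omega

theorem Frame.pair (f : Frame B u E) (hd : finrank ℚ V = 23) (hB : Pos B) (hu : N * B u u = 23)
    {y z : V} {m n : Fin 23 → ℤ} (hy : Crd B E y m) (hz : Crd B E z n) :
    23 * B y z = (23 * ∑ i, m i * n i - (∑ i, m i) * (∑ i, n i) : ℤ) + N * B y u * B z u := by
  rw [(f.parseval hd hB hu y z).1, sum_congr rfl fun i _ => by rw [hy i, hz i]]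
  simp only [mul_sub, sub_mul, sum_sub_distrib, ← sum_mul, ← mul_sum, sum_const, card_univ,
    Fintype.card_fin, nsmul_eq_mul]
  push_cast
  ring

theorem sq_sum (m : Fin 23 → ℤ) : |∑ i, m i| ≤ ∑ i, m i * m i ∧ 2 ∣ ∑ i, m i * m i - ∑ i, m i ∧
    m 0 * m 0 ≤ ∑ i, m i * m i := by
  refine ⟨(abs_sum_le_sum_abs ..).trans (sum_le_sum fun i _ => ?_), ?_,
    single_le_sum (f := fun i => m i * m i) (fun i _ => mul_self_nonneg _) (mem_univ 0)⟩
  · rw [← abs_mul_abs_self]
    rcases (abs_nonneg (m i)).eq_or_lt with e | e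
    · rw [← e]; rfl
    · nlinarith
  · rw [← sum_sub_distrib]
    exact dvd_sum fun i _ => by
      have := (Int.even_mul_pred_self (m i)).two_dvd
      rwa [mul_sub, mul_one] at this

theorem small {σ μ c : ℤ} (h1 : |μ| ≤ σ) (h2 : |μ| ≤ 11) (h3 : 2 ∣ σ - μ) (h : 23 * σ - μ * μ ≤ c)
    (hc : c ≤ 46) : (μ = 0 ∧ σ = 0) ∨ ((μ = 1 ∨ μ = -1) ∧ σ = 1) ∨
      (42 ≤ c ∧ σ = 2 ∧ (μ = 0 ∨ μ = 2 ∨ μ = -2)) := by
  obtain ⟨a, b⟩ := abs_le.1 h2
  obtain ⟨d, e⟩ := abs_le.1 h1
  interval_cases μ <;> omega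

theorem root_kind {σ μ a : ℤ} (h1 : |μ| ≤ σ) (h2 : |μ| ≤ 11) (h3 : 2 ∣ σ - μ) (N0 : 0 < N)
    (h23 : ¬ 23 ∣ N) (h : 23 * σ - μ * μ + N * a * a = 46) :
    (μ = 0 ∧ a = 0) ∨ N * a * a = 24 ∨ ((μ = 2 ∨ μ = -2) ∧ N * a * a = 4) := by
  have p : 0 ≤ (N : ℤ) * a * a := by rw [mul_assoc]; exact mul_nonneg (by omega) (mul_self_nonneg a)
  rcases small h1 h2 h3 (c := 46) (by omega) le_rfl with ⟨rfl, rfl⟩ | ⟨k | k, rfl⟩ | ⟨-, rfl, k⟩
  · exfalso
    have q : Prime (23 : ℤ) := Int.prime_iff_natAbs_prime.2 (by norm_num)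
    have : (23 : ℤ) ∣ a := by
      rcases q.dvd_or_dvd (show (23 : ℤ) ∣ N * a * a by omega) with k | k
      · exact (q.dvd_or_dvd k).resolve_left fun k => h23 (Int.natCast_dvd_natCast.1 k)
      · exact k
    obtain ⟨b, rfl⟩ := this
    have : (N : ℤ) * (23 * b) * (23 * b) = 529 * (N * b * b) := by ring
    omega
  · subst k; omega
  · subst k; omega
  · rcases k with rfl | rfl | rfl
    · have : (N : ℤ) * a * a = 0 := by omega
      simp only [mul_eq_zero, or_self_right, Nat.cast_eq_zero] at this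
      omega
    · omega
    · omega

theorem CD.root_index [Finite G] (h : Irr ρ) (c : CD ρ B x L u N) (inv : ∀ g, ∀ y ∈ L, ρ g y ∈ L)
    (hN : Even N) (h23 : ¬ 23 ∣ N) (hr : r ∈ L) (h0 : B r u = 0) (h2 : B r r = 2) :
    ∃ H : Subgroup G, H.index = 23 ∨ H.index = 24 := by
  obtain ⟨E, f, hE⟩ := c.exists_frame hr h0 h2
  set M := span ℤ (Set.range fun g => ρ g r)
  have N0 : 0 < N := Nat.cast_pos.1 c.pos
  have md : ∀ y, (∀ g, IsZ (B y (ρ g r))) → y ∈ B.dualSubmodule M := fun y k =>
    mem_dual.2 fun z hz => by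
      induction hz using span_induction with
      | mem z hz => obtain ⟨g, rfl⟩ := hz; exact k g
      | zero => simpa using IsZ.zero
      | add a b _ _ p q => rw [map_add]; exact p.add q
      | smul a b _ p => simpa using (IsZ.cast a).mul p
  have crd := fun y hy => f.crd h.dim c.form.toPos c.norm hE (md y hy)
  have pr := fun {y z m n} => f.pair h.dim c.form.toPos c.norm (y := y) (z := z) (m := m) (n := n)
  have rr : ∀ g k, IsZ (B (ρ g r) (ρ k r)) := fun g k => mem_dual.1 (c.int (inv g r hr)) _ (inv k r hr)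
  choose m hm m11 using fun g => crd (ρ g r) (rr g)
  choose a ha using fun g => c.pair (inv g r hr)
  have kind := fun g => root_kind (a := a g) (sq_sum (m g)).1 (m11 g) (sq_sum (m g)).2.1 N0 h23 (by
    have := pr (hm g) (hm g)
    rw [c.form.inv, h2, ha] at this
    exact Int.cast_injective (α := ℚ) (by push_cast at this ⊢; linarith))
  obtain ⟨g0, a0⟩ : ∃ g, a g ≠ 0 := by
    by_contra k
    push Not at k
    rcases h.irr (⨅ g, ker ((B u).comp (ρ g))) (fun g w hw => by
      simp only [mem_iInf, mem_ker, LinearMap.comp_apply, ← mul_app] at hw ⊢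
      exact fun k => hw _) with e | e
    · have : r = 0 := (Submodule.eq_bot_iff _).1 e r (by
        simp only [mem_iInf, mem_ker, LinearMap.comp_apply]
        exact fun g => by rw [c.form.symm, ha, k, Int.cast_zero])
      rw [this] at h2
      simp at h2
    · have := e.ge (mem_top (x := u))
      simp only [mem_iInf, mem_ker, LinearMap.comp_apply] at this
      exact (c.form.pos u c.ne).ne' (by simpa using this 1)
  have conj : ∀ z, (∀ g, IsZ (B z (ρ g r))) → ∀ k g, IsZ (B (ρ k z) (ρ g r)) := fun z e k g => by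
    rw [c.form.adj, ← mul_app]; exact e _
  have a0' : (a g0 : ℚ) ≠ 0 := Int.cast_ne_zero.2 a0
  rcases kind g0 with k | k | ⟨k1, k⟩
  · exact absurd k.2 a0
  · have kq : (N : ℚ) * a g0 * a g0 = 24 := by exact_mod_cast k
    have zz : B ((a g0 : ℚ)⁻¹ • u) ((a g0 : ℚ)⁻¹ • u) = 23 / 24 := by
      simp only [map_smul, LinearMap.smul_apply, smul_eq_mul, c.uu, ← kq]
      field_simp
    have iz : ∀ g, IsZ (B ((a g0 : ℚ)⁻¹ • u) (ρ g r)) := fun g => by
      rw [c.form.symm, map_smul, ha, smul_eq_mul]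
      rcases kind g with e | e | e
      · rw [e.2]; simpa using IsZ.zero
      · have : a g * a g = a g0 * a g0 := mul_left_cancel₀ (show (N : ℤ) ≠ 0 by omega) (by
          rw [← mul_assoc, ← mul_assoc, e, k])
        rcases mul_self_eq_mul_self_iff.1 this with e | e <;> rw [e]
        · exact ⟨1, by simp [a0']⟩
        · exact ⟨-1, by simp [a0']⟩
      · exfalso
        have h1 : a g0 * a g0 = 6 * (a g * a g) := mul_left_cancel₀ (show (N : ℤ) ≠ 0 by omega) (by
          linear_combination k - 6 * e.2)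
        have h2 : a g * a g ≤ 4 := by nlinarith [e.2, mul_self_nonneg (a g)]
        have : -3 < a g ∧ a g < 3 := by constructor <;> nlinarith
        have : -5 < a g0 ∧ a g0 < 5 := by constructor <;> nlinarith
        generalize a g = s at *
        generalize a g0 = t at *
        obtain ⟨-, -⟩ := this
        obtain ⟨_, _⟩ : -5 < t ∧ t < 5 := by constructor <;> nlinarith
        obtain ⟨_, _⟩ : -3 < s ∧ s < 3 := by constructor <;> nlinarith
        interval_cases s <;> interval_cases t <;> omega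
    obtain ⟨H, e⟩ := h.index24 c.form (smul_ne_zero (inv_ne_zero a0') c.ne) fun g => by
      obtain ⟨n, hn, n11⟩ := crd _ (conj _ iz g)
      have e := pr hn hn
      rw [c.form.inv, zz] at e
      set y := ρ g ((a g0 : ℚ)⁻¹ • u)
      have yz : B y ((a g0 : ℚ)⁻¹ • u) ^ 2 = N * B y u * B y u / 24 := by
        rw [map_smul, smul_eq_mul, ← kq]
        field_simp
      have p : 0 ≤ N * B y u * B y u := by rw [mul_assoc]; exact mul_nonneg c.pos.le (mul_self_nonneg _)
      have le : 23 * ∑ i, n i * n i - (∑ i, n i) * (∑ i, n i) < 23 := by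
        rw [← Int.cast_lt (R := ℚ)]; push_cast at e ⊢; linarith
      rw [← or_assoc]
      rcases small (c := 22) (sq_sum n).1 n11 (sq_sum n).2.1 (by omega) (by omega) with
        ⟨k1, k2⟩ | ⟨k1 | k1, k2⟩ | ⟨k1, -⟩
      · refine Or.inl (c.form.eq_or_neg (c.form.inv ..) ?_)
        rw [k1, k2] at e
        rw [yz, zz]; push_cast at e; linarith
      · rw [k1, k2] at e
        right; rw [yz, zz]; push_cast at e; linarith
      · rw [k1, k2] at e
        right; rw [yz, zz]; push_cast at e; linarith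
      · omega
    exact ⟨H, Or.inr e⟩
  · obtain ⟨rfl, a1⟩ : N = 4 ∧ (a g0 = 1 ∨ a g0 = -1) := by
      obtain ⟨n, rfl⟩ := hN
      have h2 : a g0 * a g0 ≤ 2 := by
        have : (1 : ℤ) ≤ n := by omega
        push_cast at k; nlinarith [mul_self_nonneg (a g0)]
      generalize a g0 = t at *
      obtain ⟨_, _⟩ : -2 < t ∧ t < 2 := by constructor <;> nlinarith
      interval_cases t <;> omega
    obtain ⟨ε, e1, e2⟩ : ∃ ε : ℤ, (ε = 1 ∨ ε = -1) ∧ ∑ j, m g0 j = 2 * ε * a g0 := by
      rcases k1 with k1 | k1 <;> rcases a1 with a1 | a1 <;> rw [k1, a1] <;> simp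
    have uu : B u u = 23 / 4 := by simpa using c.uu
    have ee : (ε : ℚ) * ε = 1 := by rcases e1 with rfl | rfl <;> simp
    let z := E 0 + (2 * ε / 23 : ℚ) • u
    have zc : Crd B E z (Pi.single 0 1) := fun i => by
      simp only [z, map_add, map_smul, LinearMap.add_apply, LinearMap.smul_apply, f.gram,
        c.form.symm u (E i), f.orth, Pi.single_apply, eq_comm (a := i)]
      simp
    have zu : B z u = ε / 2 := by
      simp only [z, map_add, map_smul, LinearMap.add_apply, LinearMap.smul_apply, f.orth, uu,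
        smul_eq_mul]
      ring
    have pz : ∀ y n, Crd B E y n → 23 * B y z = 23 * n 0 - ∑ i, n i + 2 * ε * B y u := fun y n hn => by
      rw [pr hn zc, zu]
      simp [Pi.single_apply]
      ring
    have zz : B z z = 1 := by
      have := pz z _ zc
      rw [zu] at this
      simp at this
      linarith
    have p0 : ∀ y n, Crd B E y n → IsZ (B y (ρ g0 r)) → ∃ β k : ℤ, 4 * B y u = β ∧
        β = 2 * ε * ∑ i, n i + 23 * k := fun y n hn ⟨t, ht⟩ => by
      have := pr hn (hm g0)
      rw [ht, e2, ha] at this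
      refine ⟨_, a g0 * (t - ∑ i, n i * m g0 i), ?_, rfl⟩
      rcases a1 with a1 | a1 <;> rw [a1] at this ⊢ <;> push_cast at this ⊢ <;> linarith
    have iz : ∀ g, IsZ (B z (ρ g r)) := fun g => by
      obtain ⟨β, j, b1, b2⟩ := p0 _ _ (hm g) (rr g g0)
      have b3 : β = 4 * a g := by rw [ha] at b1; exact_mod_cast b1.symm
      have := pz _ _ (hm g)
      rw [ha, c.form.symm] at this
      have q : ∑ i, m g i = 2 * ε * a g := by
        have kg := kind g
        generalize ∑ i, m g i = μ at *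
        generalize a g = s at *
        obtain ⟨_, _⟩ : -3 < s ∧ s < 3 := by
          push_cast at kg
          rcases kg with e | e | e <;> constructor <;> nlinarith
        rcases e1 with rfl | rfl <;> interval_cases s <;> omega
      rw [q] at this
      exact ⟨m g 0, by push_cast at this; linarith⟩
    obtain ⟨H, e⟩ := h.index23 c.form (z := z) (fun e => by rw [e] at zz; simp at zz) fun g => by
      obtain ⟨n, hn, n11⟩ := crd _ (conj _ iz g)
      obtain ⟨β, j, b1, b2⟩ := p0 _ _ hn (conj _ iz g g0)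
      have e := pr hn hn
      have e' := pz _ _ hn
      rw [c.form.inv, zz] at e
      have e3 : 92 = 4 * (23 * ∑ i, n i * n i - (∑ i, n i) * (∑ i, n i)) + β * β :=
        Int.cast_injective (α := ℚ) (by push_cast at e ⊢; rw [← b1]; linarith)
      obtain ⟨s1, s2, s3⟩ := sq_sum n
      have p := mul_self_nonneg β
      have q : β = 2 * ε * ∑ i, n i ∧ ∑ i, n i * n i = 1 := by
        have := small (c := 23) s1 n11 s2 (by omega) (by omega)
        generalize ∑ i, n i = μ at *
        generalize ∑ i, n i * n i = σ at *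
        obtain ⟨_, _⟩ : -10 < β ∧ β < 10 := by
          rcases this with ⟨rfl, rfl⟩ | ⟨rfl | rfl, rfl⟩ | _ <;> constructor <;> nlinarith
        rcases this with ⟨rfl, rfl⟩ | ⟨rfl | rfl, rfl⟩ | _ <;> rcases e1 with rfl | rfl <;>
          interval_cases β <;> omega
      have yz : B (ρ g z) z = n 0 := by
        have := congrArg (Int.cast : ℤ → ℚ) q.1
        push_cast at this e'
        linear_combination e' / 23 + ε / 46 * b1 + ε / 46 * this + (∑ i, (n i : ℚ)) / 23 * ee
      rw [← or_assoc]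
      by_cases n0 : n 0 = 0
      · right; rw [yz, n0]; rfl
      · refine Or.inl (c.form.eq_or_neg (c.form.inv ..) ?_)
        have : n 0 * n 0 = 1 := by have := mul_self_pos.2 n0; omega
        rw [yz, zz, sq]; exact_mod_cast this
    exact ⟨H, Or.inl e⟩

end Cfsg.Lib.Feit23
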